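import Mathlib
import Cfsg.Agent.H3.SysN
import Cfsg.Agent.H3.NilHall
import Cfsg.Agent.H1.Subn
set_option autoImplicit false
set_option linter.unusedVariables false
set_option linter.style.haveILetI false
/-! Carter subgroups of solvable groups. -/
open Subgroup Pointwise

namespace Cfsg.Agent.H3

universe u

/-- nilpotent supergroup of a self-normalizing subgroup -/
theorem eq_of_self_normalizing {G : Type*} [Group G] {H X : Subgroup G} (hH : normalizer (H : Set G) = H) (hX : Group.IsNilpotent X) (hHX : H ≤ X) :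
    H = X := by
  by_contra hne
  have hnc := Group.normalizerCondition_of_isNilpotent (G := X)
  have hlt : H.subgroupOf X < ⊤ := by
    rw [lt_top_iff_ne_top]
    intro h
    rw [Subgroup.subgroupOf_eq_top] at h
    exact hne (le_antisymm hHX h)
  obtain ⟨x, hx, hxn⟩ := SetLike.exists_of_lt (hnc _ hlt)
  apply hxn
  rw [Subgroup.mem_subgroupOf, ← hH, Subgroup.mem_normalizer_iff]
  rw [Subgroup.mem_normalizer_iff] at hx
  intro h
  constructor
  · intro hh
    exact (hx ⟨h, hHX hh⟩).mp hh
  · intro hh
    have h1 : x * h * (x : G)⁻¹ ∈ X := hHX hh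
    have h2 : h ∈ X := by
      have := X.mul_mem (X.mul_mem (X.inv_mem x.2) h1) x.2
      have e : (x : G)⁻¹ * (x * h * (x : G)⁻¹) * x = h := by group
      rwa [e] at this
    exact (hx ⟨h, h2⟩).mpr hh

theorem carter_subgroupOf {G : Type*} [Group G] {H T : Subgroup G} (hH : Cfsg.IsCarterSubgroup H) (hHT : H ≤ T) :
    Cfsg.IsCarterSubgroup (H.subgroupOf T) := by
  refine ⟨?_, ?_⟩
  · haveI := hH.1
    exact Group.nilpotent_of_mulEquiv (Subgroup.subgroupOfEquivOfLe hHT).symm
  · apply le_antisymm _ Subgroup.le_normalizer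
    intro x hx
    rw [Subgroup.mem_subgroupOf, ← hH.2, Subgroup.mem_normalizer_iff]
    rw [Subgroup.mem_normalizer_iff] at hx
    intro h
    constructor
    · intro hh
      exact (hx ⟨h, hHT hh⟩).mp hh
    · intro hh
      have h1 : x * h * (x : G)⁻¹ ∈ T := hHT hh
      have h2 : h ∈ T := by
        have := T.mul_mem (T.mul_mem (T.inv_mem x.2) h1) x.2
        have e : (x : G)⁻¹ * (x * h * (x : G)⁻¹) * x = h := by group
        rwa [e] at this
      exact (hx ⟨h, h2⟩).mpr hh

theorem carter_conj {G : Type*} [Group G] {H : Subgroup G} (hH : Cfsg.IsCarterSubgroup H) (g : G) : Cfsg.IsCarterSubgroup (MulAut.conj g • H) := by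
  refine ⟨isNilpotent_conj hH.1 g, ?_⟩
  apply le_antisymm _ Subgroup.le_normalizer
  intro x hx
  rw [L0.mem_conj_smul, ← hH.2, L0.mem_normalizer_conj, map_mul, map_mul, mul_smul, mul_smul, L0.mem_normalizer_conj.mp hx, smul_smul, ← map_mul,
    inv_mul_cancel, map_one, one_smul]

theorem conj_subgroupOf {G : Type*} [Group G] {H K T : Subgroup G} (hHT : H ≤ T) (hKT : K ≤ T) {t : T} (h : MulAut.conj t • H.subgroupOf T = K.subgroupOf T) :
    MulAut.conj (t : G) • H = K := by
  ext x
  constructor
  · intro hx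
    rw [L0.mem_conj_smul] at hx
    have hxT : x ∈ T := by
      have := T.mul_mem (T.mul_mem t.2 (hHT hx)) (T.inv_mem t.2)
      have e : (t : G) * ((t : G)⁻¹ * x * t) * (t : G)⁻¹ = x := by group
      rwa [e] at this
    have h3 : (⟨x, hxT⟩ : T) ∈ MulAut.conj t • H.subgroupOf T := by
      rw [L0.mem_conj_smul, Subgroup.mem_subgroupOf]
      exact hx
    rw [h, Subgroup.mem_subgroupOf] at h3
    exact h3
  · intro hx
    have h3 : (⟨x, hKT hx⟩ : T) ∈ K.subgroupOf T := by rw [Subgroup.mem_subgroupOf]; exact hx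
    rw [← h, L0.mem_conj_smul, Subgroup.mem_subgroupOf] at h3
    rw [L0.mem_conj_smul]
    exact h3

/-- images of Carter subgroups, given conjugacy in proper subgroups -/
theorem carter_image {G : Type u} [Group G] [Finite G] (N : Subgroup G) [hN : N.Normal] {H : Subgroup G} (hH : Cfsg.IsCarterSubgroup H)
    (hconj : ∀ T : Subgroup G, T ≠ ⊤ → ∀ C C' : Subgroup T, Cfsg.IsCarterSubgroup C → Cfsg.IsCarterSubgroup C' → ∃ t : T, MulAut.conj t • C = C') :
    Cfsg.IsCarterSubgroup (H.map (QuotientGroup.mk' N)) := by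
  refine ⟨?_, ?_⟩
  · haveI := hH.1
    exact Group.nilpotent_of_surjective ((QuotientGroup.mk' N).subgroupMap H) ((QuotientGroup.mk' N).subgroupMap_surjective H)
  · by_cases hT : N ⊔ H = ⊤
    · have : H.map (QuotientGroup.mk' N) = ⊤ := by
        rw [eq_top_iff]
        intro x _
        obtain ⟨x, rfl⟩ := QuotientGroup.mk'_surjective N x
        have hx : x ∈ N ⊔ H := by rw [hT]; trivial
        rw [Subgroup.mem_sup_of_normal_left] at hx
        obtain ⟨n, hn, h, hh, rfl⟩ := hx
        refine ⟨h, hh, ?_⟩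
        rw [map_mul]
        have : QuotientGroup.mk' N n = 1 := (QuotientGroup.eq_one_iff n).mpr hn
        rw [this, one_mul]
      rw [this, Subgroup.normalizer_eq_top]
    · apply le_antisymm _ Subgroup.le_normalizer
      intro x hx
      obtain ⟨x, rfl⟩ := QuotientGroup.mk'_surjective N x
      have hmem : ∀ y : G, QuotientGroup.mk' N y ∈ H.map (QuotientGroup.mk' N) ↔ y ∈ N ⊔ H := by
        intro y
        rw [Subgroup.mem_sup_of_normal_left]
        constructor
        · rintro ⟨t, ht, htx⟩
          rw [QuotientGroup.mk'_apply, QuotientGroup.mk'_apply, QuotientGroup.eq] at htx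
          refine ⟨t * (t⁻¹ * y) * t⁻¹, hN.conj_mem _ htx t, t, ht, by group⟩
        · rintro ⟨a, ha, t, ht, rfl⟩
          refine ⟨t, ht, ?_⟩
          rw [map_mul]
          have : QuotientGroup.mk' N a = 1 := (QuotientGroup.eq_one_iff a).mpr ha
          rw [this, one_mul]
      have hle : MulAut.conj x • H ≤ N ⊔ H := by
        intro y hy
        rw [L0.mem_conj_smul] at hy
        rw [← hmem]
        have h1 := (Subgroup.mem_normalizer_iff.mp hx (QuotientGroup.mk' N (x⁻¹ * y * x))).mp ⟨_, hy, rfl⟩
        rw [← map_inv, ← map_mul, ← map_mul] at h1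
        have e : x * (x⁻¹ * y * x) * x⁻¹ = y := by group
        rwa [e] at h1
      obtain ⟨t, ht⟩ := hconj _ hT _ _ (carter_subgroupOf hH le_sup_right) (carter_subgroupOf (carter_conj hH x) hle)
      obtain ⟨t, htT, ht'⟩ : ∃ t ∈ N ⊔ H, MulAut.conj t • H = MulAut.conj x • H := ⟨t, t.2, conj_subgroupOf le_sup_right hle ht⟩
      have h2 : t⁻¹ * x ∈ normalizer (H : Set G) := by
        rw [L0.mem_normalizer_conj, map_mul, mul_smul, ← ht', smul_smul, ← map_mul, inv_mul_cancel, map_one, one_smul]
      rw [hH.2] at h2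
      rw [hmem]
      have h3 := (N ⊔ H).mul_mem htT ((le_sup_right : H ≤ N ⊔ H) h2)
      rwa [mul_inv_cancel_left] at h3

theorem hall_normalizer_carter {G : Type u} [Group G] [Finite G] {p : ℕ} [hp : Fact p.Prime] (N : Subgroup G) [hN : N.Normal] (hNp : IsPGroup p N)
    (hq : Group.IsNilpotent (G ⧸ N)) {Q : Subgroup G} (hQc : (Nat.card Q).Coprime p) (hQi : ∃ k, Q.index = p ^ k) :
    Cfsg.IsCarterSubgroup (normalizer (Q : Set G)) := by
  set X := normalizer (Q : Set G) with hX
  obtain ⟨k, hk⟩ := hQi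
  -- normal Sylow p-subgroup
  obtain ⟨P⟩ : Nonempty (Sylow p G) := inferInstance
  have hPn : (P : Subgroup G).Normal := by
    have hmap : IsPGroup p ((P : Subgroup G).map (QuotientGroup.mk' N)) := P.2.map _
    have hNP : N ≤ P := L0.normal_le_sylow hNp P
    have hPm : ((P : Subgroup G).map (QuotientGroup.mk' N)).Normal := by
      let P' : Sylow p (G ⧸ N) := Sylow.mapSurjective (QuotientGroup.mk'_surjective N) P
      have h1 : (P' : Subgroup (G ⧸ N)) = (P : Subgroup G).map (QuotientGroup.mk' N) := rfl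
      rw [← h1]
      haveI := hq
      infer_instance
    have h2 : ((P : Subgroup G).map (QuotientGroup.mk' N)).comap (QuotientGroup.mk' N) = P := by
      rw [Subgroup.comap_map_eq, QuotientGroup.ker_mk', sup_eq_left.mpr hNP]
    rw [← h2]
    exact hPm.comap _
  have hQX : Q ≤ X := Subgroup.le_normalizer
  have hnil : Group.IsNilpotent X := by
    have hQn : (Q.subgroupOf X).Normal := by
      rw [Subgroup.normal_subgroupOf_iff_le_normalizer hQX]
    have hPXn : ((P : Subgroup G).subgroupOf X).Normal := inferInstance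
    have hQnil : Group.IsNilpotent (Q.subgroupOf X) := by
      have h1 : Group.IsNilpotent Q := by
        have hinj : Function.Injective ((QuotientGroup.mk' N).comp Q.subtype) := by
          rw [injective_iff_map_eq_one]
          intro w hw
          rw [MonoidHom.comp_apply, QuotientGroup.mk'_apply, QuotientGroup.eq_one_iff] at hw
          have h2 : (w : G) ∈ Q ⊓ N := ⟨w.2, hw⟩
          have h3 : Q ⊓ N = ⊥ := by
            apply L0.inf_eq_bot_of_coprime'
            obtain ⟨j, hj⟩ := IsPGroup.iff_card.mp hNp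
            rw [hj]; exact hQc.pow_right j
          rw [h3, Subgroup.mem_bot] at h2
          exact Subtype.ext h2
        have e := MonoidHom.ofInjective hinj
        haveI := hq
        exact Group.nilpotent_of_mulEquiv e.symm
      haveI := h1
      exact Group.nilpotent_of_mulEquiv (Subgroup.subgroupOfEquivOfLe hQX).symm
    have hPnil : Group.IsNilpotent ((P : Subgroup G).subgroupOf X) := by
      have : IsPGroup p ((P : Subgroup G).subgroupOf X) := L0.isPGroup_subgroupOf P.2
      exact this.isNilpotent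
    have hsup : (P : Subgroup G).subgroupOf X ⊔ Q.subgroupOf X = ⊤ := by
      rw [← Subgroup.index_eq_one]
      have h1 : ((P : Subgroup G).subgroupOf X ⊔ Q.subgroupOf X).index ∣ ((P : Subgroup G).subgroupOf X).index := Subgroup.index_dvd_of_le le_sup_left
      have h2 : ((P : Subgroup G).subgroupOf X ⊔ Q.subgroupOf X).index ∣ (Q.subgroupOf X).index := Subgroup.index_dvd_of_le le_sup_right
      have h3 : ((P : Subgroup G).subgroupOf X).index ∣ (P : Subgroup G).index := Subgroup.relIndex_dvd_index_of_normal (P : Subgroup G) X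
      have h4 : (Q.subgroupOf X).index ∣ Q.index := Dvd.intro _ (Subgroup.relIndex_mul_index hQX)
      rw [hk] at h4
      have h5 : (p ^ k).Coprime (P : Subgroup G).index := Nat.Coprime.pow_left k ((Nat.Prime.coprime_iff_not_dvd hp.out).mpr P.not_dvd_index)
      exact Nat.eq_one_of_dvd_coprimes h5 (h2.trans h4) (h1.trans h3)
    have h1 : (P : Subgroup G).subgroupOf X ≤ fittingSubgroup X := L0.le_fittingSubgroup hPnil
    have h2 : Q.subgroupOf X ≤ fittingSubgroup X := L0.le_fittingSubgroup hQnil
    have h3 : fittingSubgroup X = ⊤ := by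
      rw [eq_top_iff, ← hsup]; exact sup_le h1 h2
    have h4 := L0.fittingSubgroup_isNilpotent X
    rw [h3] at h4
    haveI := h4
    exact Group.nilpotent_of_mulEquiv Subgroup.topEquiv
  refine ⟨hnil, ?_⟩
  apply le_antisymm _ Subgroup.le_normalizer
  intro g hg
  rw [hX]
  apply Subgroup.mem_normalizer_fintype
  intro y hy
  have h1 : g * y * g⁻¹ ∈ X := (Subgroup.mem_normalizer_iff.mp hg y).mp (hQX hy)
  -- it has order coprime to p, and X/Q is a p-group
  haveI hQn : (Q.subgroupOf X).Normal := by
    rw [Subgroup.normal_subgroupOf_iff_le_normalizer hQX]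
  have h2 : orderOf (g * y * g⁻¹) = orderOf y := by
    have := orderOf_injective (MulAut.conj g).toMonoidHom (MulAut.conj g).injective y
    exact this
  have h3 : (orderOf y).Coprime p := by
    apply Nat.Coprime.coprime_dvd_left _ hQc
    rw [← Subgroup.orderOf_mk y hy]; exact _root_.orderOf_dvd_natCard _
  have h4 : orderOf ((⟨g * y * g⁻¹, h1⟩ : X) : X ⧸ Q.subgroupOf X) ∣ orderOf (g * y * g⁻¹) := by
    have := orderOf_map_dvd (QuotientGroup.mk' (Q.subgroupOf X)) ⟨g * y * g⁻¹, h1⟩
    rwa [Subgroup.orderOf_mk] at this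
  have h5 : orderOf ((⟨g * y * g⁻¹, h1⟩ : X) : X ⧸ Q.subgroupOf X) ∣ p ^ k := by
    have h6 : (Q.subgroupOf X).index ∣ Q.index := Dvd.intro _ (Subgroup.relIndex_mul_index hQX)
    rw [hk] at h6
    exact (_root_.orderOf_dvd_natCard _).trans h6
  rw [h2] at h4
  have h6 := Nat.eq_one_of_dvd_coprimes (h3.pow_right k) h4 h5
  rw [orderOf_eq_one_iff, QuotientGroup.eq_one_iff, Subgroup.mem_subgroupOf] at h6
  exact h6

theorem carter_eq_hall_normalizer {G : Type u} [Group G] [Finite G] {p : ℕ} [hp : Fact p.Prime] (N : Subgroup G) [hN : N.Normal] (hNp : IsPGroup p N)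
    {H : Subgroup G} (hH : Cfsg.IsCarterSubgroup H) (hNH : N ⊔ H = ⊤) :
    ∃ R : Subgroup G, (Nat.card R).Coprime p ∧ (∃ k, R.index = p ^ k) ∧ H = normalizer (R : Set G) := by
  obtain ⟨R, hRH, hHR, hRc, ⟨k, hk⟩, -, -⟩ := nil_split H hH.1 p
  have hHi : H.index ∣ Nat.card N := by
    have h1 : H.relIndex (N ⊔ H) = H.relIndex N := relIndex_sup_eq H N
    rw [hNH, Subgroup.relIndex_top_right] at h1
    rw [h1, Subgroup.relIndex]
    exact Subgroup.index_dvd_card _
  obtain ⟨j, hj⟩ := IsPGroup.iff_card.mp hNp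
  rw [hj] at hHi
  obtain ⟨i, -, hi⟩ := (Nat.dvd_prime_pow hp.out).mp hHi
  have hRi : R.index = p ^ (k + i) := by
    apply Nat.eq_of_mul_eq_mul_left (Nat.card_pos (α := R))
    rw [R.card_mul_index, ← H.card_mul_index, hk, hi, pow_add]; ring
  have hq : Group.IsNilpotent (G ⧸ N) := by
    haveI := hH.1
    have hsurj : Function.Surjective ((QuotientGroup.mk' N).comp H.subtype) := by
      intro x
      obtain ⟨x, rfl⟩ := QuotientGroup.mk'_surjective N x
      have hx : x ∈ N ⊔ H := by rw [hNH]; trivial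
      rw [Subgroup.mem_sup_of_normal_left] at hx
      obtain ⟨n, hn, h, hh, rfl⟩ := hx
      refine ⟨⟨h, hh⟩, ?_⟩
      rw [MonoidHom.comp_apply, map_mul]
      have : QuotientGroup.mk' N n = 1 := (QuotientGroup.eq_one_iff n).mpr hn
      rw [this, one_mul]; rfl
    exact Group.nilpotent_of_surjective _ hsurj
  refine ⟨R, hRc, ⟨k + i, hRi⟩, ?_⟩
  exact eq_of_self_normalizing hH.2 (hall_normalizer_carter N hNp hq hRc ⟨_, hRi⟩).1 hHR

theorem carter_aux (n : ℕ) : ∀ (G : Type u) [Group G] [Finite G], Nat.card G = n → Group.IsSolvable G →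
    (∃ C : Subgroup G, Cfsg.IsCarterSubgroup C) ∧
      ∀ C C' : Subgroup G, Cfsg.IsCarterSubgroup C → Cfsg.IsCarterSubgroup C' → ∃ g : G, MulAut.conj g • C = C' := by
  induction n using Nat.strong_induction_on with
  | _ n ih =>
  intro G _ _ hn hsol
  rcases subsingleton_or_nontrivial G with hG | hG
  · refine ⟨⟨⊤, ?_, by rw [Subgroup.normalizer_eq_top]⟩, fun C C' _ _ => ⟨1, Subsingleton.elim _ _⟩⟩
    exact Group.isNilpotent_of_subsingleton
  have hcsub : ∀ T : Subgroup G, T ≠ ⊤ → ∀ C C' : Subgroup T, Cfsg.IsCarterSubgroup C → Cfsg.IsCarterSubgroup C' → ∃ t : T, MulAut.conj t • C = C' := by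
    intro T hT
    exact (ih _ (by rw [← hn]; exact H1.card_lt_of_ne_top hT) T rfl inferInstance).2
  obtain ⟨N, hN, hNb, hmin⟩ := H1.exists_minimal_normal (G := G)
  haveI : Group.IsSolvable N := inferInstance
  haveI hNc : IsMulCommutative N := H1.isMulCommutative_of_minimal_of_solvable N hNb hmin
  obtain ⟨p, hp, hNp⟩ := H1.exists_prime_pow_eq_one_of_minimal N hNb hmin
  haveI : Fact p.Prime := ⟨hp⟩
  have hNpg : IsPGroup p N := H1.isPGroup_of_pow_eq_one N hNp
  have hcard : Nat.card G = Nat.card N * Nat.card (G ⧸ N) := by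
    rw [Subgroup.card_eq_card_quotient_mul_card_subgroup N, mul_comm]
  have hN1 : 1 < Nat.card N := by
    have := Nat.card_pos (α := N)
    have h2 : Nat.card N ≠ 1 := fun h => hNb (Subgroup.card_eq_one.mp h)
    omega
  have hlt : Nat.card (G ⧸ N) < n := by
    rw [← hn, hcard]
    exact lt_mul_of_one_lt_left Nat.card_pos hN1
  obtain ⟨⟨C₀, hC₀⟩, hconjq⟩ := ih _ hlt (G ⧸ N) rfl inferInstance
  constructor
  · by_cases hT : C₀.comap (QuotientGroup.mk' N) = ⊤
    · have hq : Group.IsNilpotent (G ⧸ N) := by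
        have h1 : C₀ = ⊤ := by
          rw [← Subgroup.map_comap_eq_self_of_surjective (QuotientGroup.mk'_surjective N) C₀, hT, ← MonoidHom.range_eq_map, MonoidHom.range_eq_top.mpr (QuotientGroup.mk'_surjective N)]
        have h2 := hC₀.1
        rw [h1] at h2
        haveI := h2
        exact Group.nilpotent_of_mulEquiv Subgroup.topEquiv
      have hpow := (Nat.ordProj_mul_ordCompl_eq_self (Nat.card G) p).symm
      rw [mul_comm] at hpow
      have hcop : (Nat.card G / p ^ (Nat.card G).factorization p).Coprime (p ^ (Nat.card G).factorization p) :=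
        (Nat.Coprime.pow_left _ ((Nat.Prime.coprime_iff_not_dvd hp).mpr (Nat.not_dvd_ordCompl hp Nat.card_pos.ne'))).symm
      obtain ⟨Q, hQ⟩ := H1.hall_exists hsol hpow hcop
      refine ⟨_, hall_normalizer_carter N hNpg hq (Q := Q) ?_ ⟨(Nat.card G).factorization p, ?_⟩⟩
      · rw [hQ]; exact ((Nat.Prime.coprime_iff_not_dvd hp).mpr (Nat.not_dvd_ordCompl hp Nat.card_pos.ne')).symm
      · apply Nat.eq_of_mul_eq_mul_left (Nat.card_pos (α := Q))
        rw [Q.card_mul_index, hQ]; exact hpow
    · set T := C₀.comap (QuotientGroup.mk' N) with hTdef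
      have hNT : N ≤ T := by
        intro x hx
        rw [hTdef, Subgroup.mem_comap, QuotientGroup.mk'_apply, (QuotientGroup.eq_one_iff x).mpr hx]
        exact one_mem _
      have hTlt : Nat.card T < n := by rw [← hn]; exact H1.card_lt_of_ne_top hT
      obtain ⟨⟨C', hC'⟩, -⟩ := ih _ hTlt T rfl inferInstance
      -- image of C' in T/N
      have hcT : ∀ S : Subgroup T, S ≠ ⊤ → ∀ C C' : Subgroup S, Cfsg.IsCarterSubgroup C → Cfsg.IsCarterSubgroup C' → ∃ t : S, MulAut.conj t • C = C' := by
        intro S hS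
        exact (ih _ ((H1.card_lt_of_ne_top hS).trans hTlt) S rfl inferInstance).2
      have himg := carter_image (N.subgroupOf T) hC' hcT
      have hqn : Group.IsNilpotent (T ⧸ N.subgroupOf T) := by
        let f : T →* C₀ := (QuotientGroup.mk' N).subgroupComap C₀
        have hf : Function.Surjective f := (QuotientGroup.mk' N).subgroupComap_surjective_of_surjective C₀ (QuotientGroup.mk'_surjective N)
        have hker : f.ker = N.subgroupOf T := by
          ext x
          rw [MonoidHom.mem_ker, Subgroup.mem_subgroupOf, ← QuotientGroup.eq_one_iff]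
          constructor
          · intro h; exact congrArg Subtype.val h
          · intro h; exact Subtype.ext h
        have e : T ⧸ N.subgroupOf T ≃* C₀ := (QuotientGroup.quotientMulEquivOfEq hker.symm).trans (QuotientGroup.quotientKerEquivOfSurjective f hf)
        haveI := hC₀.1
        exact Group.nilpotent_of_mulEquiv e.symm
      have htop : C'.map (QuotientGroup.mk' (N.subgroupOf T)) = ⊤ := by
        apply eq_of_self_normalizing himg.2 _ le_top
        haveI := hqn
        exact Group.nilpotent_of_mulEquiv Subgroup.topEquiv.symm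
      have hC'N : ∀ t : T, ∃ c ∈ C', (c : G)⁻¹ * t ∈ N := by
        intro t
        have : QuotientGroup.mk' (N.subgroupOf T) t ∈ C'.map (QuotientGroup.mk' (N.subgroupOf T)) := by rw [htop]; trivial
        obtain ⟨c, hc, hct⟩ := this
        rw [QuotientGroup.mk'_apply, QuotientGroup.mk'_apply, QuotientGroup.eq, Subgroup.mem_subgroupOf] at hct
        exact ⟨c, hc, hct⟩
      have hCmap : (C'.map T.subtype).map (QuotientGroup.mk' N) = C₀ := by
        apply le_antisymm
        · rintro _ ⟨_, ⟨c, hc, rfl⟩, rfl⟩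
          exact c.2
        · intro x hx
          obtain ⟨x, rfl⟩ := QuotientGroup.mk'_surjective N x
          obtain ⟨c, hc, hcx⟩ := hC'N ⟨x, hx⟩
          refine ⟨c, ⟨c, hc, rfl⟩, ?_⟩
          rw [QuotientGroup.mk'_apply, QuotientGroup.mk'_apply, QuotientGroup.eq]
          exact hcx
      refine ⟨C'.map T.subtype, ?_, ?_⟩
      · haveI := hC'.1
        exact Group.nilpotent_of_mulEquiv (Subgroup.equivMapOfInjective C' T.subtype T.subtype_injective)
      · apply le_antisymm _ Subgroup.le_normalizer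
        intro g hg
        have hgT : g ∈ T := by
          rw [hTdef, Subgroup.mem_comap, ← hC₀.2]
          apply Subgroup.mem_normalizer_fintype
          intro y hy
          rw [← hCmap] at hy ⊢
          obtain ⟨z, hz, rfl⟩ := hy
          exact ⟨g * z * g⁻¹, (Subgroup.mem_normalizer_iff.mp hg z).mp hz, by rw [map_mul, map_mul, map_inv]⟩
        have h1 : (⟨g, hgT⟩ : T) ∈ C' := by
          rw [← hC'.2]
          apply Subgroup.mem_normalizer_fintype
          intro y hy
          obtain ⟨z, hz, hzy⟩ := (Subgroup.mem_normalizer_iff.mp hg (y : G)).mp ⟨y, hy, rfl⟩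
          have : z = ⟨g, hgT⟩ * y * ⟨g, hgT⟩⁻¹ := Subtype.ext hzy
          rw [← this]; exact hz
        exact ⟨_, h1, rfl⟩
  · intro H H' hH hH'
    obtain ⟨g, hg⟩ := hconjq _ _ (carter_image N hH hcsub) (carter_image N hH' hcsub)
    obtain ⟨g, rfl⟩ := QuotientGroup.mk'_surjective N g
    have hH1 := carter_conj hH g
    set H1' := MulAut.conj g • H with hH1'
    have himg : H1'.map (QuotientGroup.mk' N) = H'.map (QuotientGroup.mk' N) := by
      rw [← hg]
      apply le_antisymm
      · rintro _ ⟨x, hx, rfl⟩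
        have hx' : g⁻¹ * x * g ∈ H := by
          have : x ∈ MulAut.conj g • H := hx
          rwa [L0.mem_conj_smul] at this
        rw [L0.mem_conj_smul]
        exact ⟨_, hx', by rw [map_mul, map_mul, map_inv]⟩
      · intro x hx
        rw [L0.mem_conj_smul] at hx
        obtain ⟨y, hy, hyx⟩ := hx
        refine ⟨g * y * g⁻¹, conj_mem_smul hy, ?_⟩
        rw [map_mul, map_mul, map_inv, hyx]; group
    have hsup : N ⊔ H1' = N ⊔ H' := by
      have := (Subgroup.map_eq_map_iff (f := QuotientGroup.mk' N)).mp himg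
      rw [QuotientGroup.ker_mk', sup_comm, sup_comm H'] at this
      exact this
    have hfin : ∃ x : G, MulAut.conj x • H1' = H' := by
      by_cases hT : N ⊔ H' = ⊤
      · obtain ⟨R, hRc, ⟨k, hk⟩, hRH⟩ := carter_eq_hall_normalizer N hNpg hH1 (by rw [hsup]; exact hT)
        obtain ⟨R', hRc', ⟨k', hk'⟩, hRH'⟩ := carter_eq_hall_normalizer N hNpg hH' hT
        have h1 := R.card_mul_index
        have h2 := R'.card_mul_index
        have hc : Nat.card R' = Nat.card R := by
          rw [hk] at h1
          rw [hk', ← h1] at h2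
          apply Nat.dvd_antisymm
          · exact (hRc'.pow_right k).dvd_of_dvd_mul_right (Dvd.intro _ h2)
          · exact (hRc.pow_right k').dvd_of_dvd_mul_right (Dvd.intro _ h2.symm)
        obtain ⟨x, hx⟩ := H1.hall_conj hsol h1.symm (by rw [hk]; exact hRc.pow_right k) rfl hc
        refine ⟨x, ?_⟩
        rw [hRH, hRH', ← hx]
        ext y
        rw [L0.mem_conj_smul, L0.mem_normalizer_conj, L0.mem_normalizer_conj, map_mul, map_mul, mul_smul, mul_smul, map_inv, inv_smul_eq_iff]
      · have hle : H1' ≤ N ⊔ H' := by rw [← hsup]; exact le_sup_right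
        obtain ⟨t, ht⟩ := hcsub _ hT _ _ (carter_subgroupOf hH1 hle) (carter_subgroupOf hH' le_sup_right)
        exact ⟨t, conj_subgroupOf hle le_sup_right ht⟩
    obtain ⟨x, hx⟩ := hfin
    exact ⟨x * g, by rw [map_mul, mul_smul, ← hH1', hx]⟩

theorem carter_exists {G : Type u} [Group G] [Finite G] (hs : Group.IsSolvable G) : ∃ C : Subgroup G, Cfsg.IsCarterSubgroup C :=
  (carter_aux _ G rfl hs).1

theorem carter_conjugate {G : Type u} [Group G] [Finite G] (hs : Group.IsSolvable G) {C C' : Subgroup G} (h : Cfsg.IsCarterSubgroup C)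
    (h' : Cfsg.IsCarterSubgroup C') : ∃ g : G, MulAut.conj g • C = C' :=
  (carter_aux _ G rfl hs).2 C C' h h'

theorem carter_map {G : Type u} [Group G] [Finite G] (hs : Group.IsSolvable G) (N : Subgroup G) [hN : N.Normal] {C : Subgroup G} (h : Cfsg.IsCarterSubgroup C) :
    Cfsg.IsCarterSubgroup (C.map (QuotientGroup.mk' N)) :=
  carter_image N h fun T _ C C' hC hC' => carter_conjugate inferInstance hC hC'

end Cfsg.Agent.H3
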