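import Mathlib
import Cfsg.Agent.H3.Carter
set_option autoImplicit false
set_option linter.unusedVariables false
set_option linter.style.haveILetI false
/-! Carter subgroups and system normalizers. -/
open Subgroup Pointwise

namespace Cfsg.Agent.H3

universe u

theorem relIndex_sup_of_le {G : Type*} [Group G] {N X C : Subgroup G} [hN : N.Normal] (hNX : N ≤ X) : X.relIndex (N ⊔ C) = X.relIndex C := by
  have h1 : (X.map (QuotientGroup.mk' N)).comap (QuotientGroup.mk' N) = X := by
    rw [Subgroup.comap_map_eq, QuotientGroup.ker_mk', sup_eq_left.mpr hNX]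
  have h2 : (N ⊔ C).map (QuotientGroup.mk' N) = C.map (QuotientGroup.mk' N) := by
    rw [Subgroup.map_sup]
    have : N.map (QuotientGroup.mk' N) = ⊥ := by
      rw [Subgroup.map_eq_bot_iff, QuotientGroup.ker_mk']
    rw [this, bot_sup_eq]
  rw [← h1, Subgroup.relIndex_comap, Subgroup.relIndex_comap, h2]

theorem relIndex_inf_of_le {G : Type*} [Group G] {X K L : Subgroup G} (h : L ≤ X) : (X ⊓ K).relIndex L = K.relIndex L := by
  rw [Subgroup.relIndex, Subgroup.relIndex]
  congr 1
  ext x
  rw [Subgroup.mem_subgroupOf, Subgroup.mem_subgroupOf]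
  exact ⟨fun hx => hx.2, fun hx => ⟨h x.2, hx⟩⟩

/-- reduction to `N ⊔ C` -/
theorem relIndex_reduce {G : Type*} [Group G] [Finite G] {K C N : Subgroup G} [hN : N.Normal] {p : ℕ} (hp : p.Prime)
    (hK : ∃ k, K.index = p ^ k) (hC : ∃ k, K.relIndex C = p ^ k) : ∃ k, K.relIndex (N ⊔ C) = p ^ k := by
  obtain ⟨a, ha⟩ := hK
  obtain ⟨b, hb⟩ := hC
  set X := N ⊔ (C ⊓ K) with hX
  have hXT : X ≤ N ⊔ C := sup_le_sup_left inf_le_left _
  have h1 : K.relIndex (N ⊔ C) ∣ (X ⊓ K).relIndex (N ⊔ C) := Subgroup.relIndex_dvd_of_le_left _ inf_le_right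
  have h2 : (X ⊓ K).relIndex X * X.relIndex (N ⊔ C) = (X ⊓ K).relIndex (N ⊔ C) := Subgroup.relIndex_mul_relIndex _ _ _ inf_le_left hXT
  have h3 : X.relIndex (N ⊔ C) ∣ p ^ b := by
    rw [relIndex_sup_of_le le_sup_left, ← hb, ← Subgroup.inf_relIndex_left C K]
    exact Subgroup.relIndex_dvd_of_le_left _ le_sup_right
  have h4 : (X ⊓ K).relIndex X ∣ p ^ a := by
    have h5 : N ⊔ (X ⊓ K) = X := by
      apply le_antisymm (sup_le le_sup_left inf_le_left)
      exact sup_le le_sup_left ((le_inf (le_sup_right : C ⊓ K ≤ X) inf_le_right).trans le_sup_right)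
    have h6 : (X ⊓ K).relIndex (N ⊔ (X ⊓ K)) = (X ⊓ K).relIndex N := relIndex_sup_eq _ _
    rw [h5, relIndex_inf_of_le le_sup_left] at h6
    rw [h6, ← ha]
    exact relIndex_dvd_index K N
  have h7 : K.relIndex (N ⊔ C) ∣ p ^ (a + b) := by
    refine h1.trans ?_
    rw [← h2, pow_add]
    exact mul_dvd_mul h4 h3
  obtain ⟨k, -, hk⟩ := (Nat.dvd_prime_pow hp).mp h7
  exact ⟨k, hk⟩

theorem index_eq_of {G : Type*} [Group G] [Finite G] {K : Subgroup G} {p : ℕ} (hp : p.Prime) (hK : ∃ k, K.index = p ^ k) (hc : (Nat.card K).Coprime p) :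
    K.index = p ^ (Nat.card G).factorization p := by
  obtain ⟨k, hk⟩ := hK
  rw [hk]
  congr 1
  have h4 : (Nat.card K).factorization p = 0 := by
    apply Nat.factorization_eq_zero_of_not_dvd
    intro hd
    exact hp.one_lt.ne' (Nat.eq_one_of_dvd_coprimes hc hd dvd_rfl)
  rw [← K.card_mul_index, hk, Nat.factorization_mul Nat.card_pos.ne' (pow_ne_zero _ hp.ne_zero), Finsupp.add_apply, h4, zero_add, hp.factorization_pow, Finsupp.single_eq_same]

theorem systemNormalizer_conj {G : Type*} [Group G] (K : Nat.Primes → Subgroup G) (g : G) :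
    Cfsg.systemNormalizer (fun p => MulAut.conj g • K p) = MulAut.conj g • Cfsg.systemNormalizer K := by
  ext x
  rw [L0.mem_conj_smul, Cfsg.systemNormalizer, Cfsg.systemNormalizer, Subgroup.mem_iInf, Subgroup.mem_iInf]
  apply forall_congr'
  intro p
  rw [L0.mem_normalizer_conj, L0.mem_normalizer_conj, map_mul, map_mul, mul_smul, mul_smul, map_inv, inv_smul_eq_iff]

theorem sys_le_carter (n : ℕ) : ∀ (G : Type u) [Group G] [Finite G], Nat.card G = n → Group.IsSolvable G →
    ∀ (C : Subgroup G) (K : Nat.Primes → Subgroup G), Cfsg.IsCarterSubgroup C → Cfsg.IsComplementSystem K →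
      (∀ p : Nat.Primes, ∃ k, (K p).relIndex C = (p : ℕ) ^ k) → Cfsg.systemNormalizer K ≤ C := by
  induction n using Nat.strong_induction_on with
  | _ n ih =>
  intro G _ _ hn hsol C K hC hK hred
  rcases subsingleton_or_nontrivial G with hG | hG
  · intro x _
    rw [Subsingleton.elim x 1]; exact one_mem _
  obtain ⟨N, hN, hNb, hmin⟩ := H1.exists_minimal_normal (G := G)
  haveI : Group.IsSolvable N := inferInstance
  haveI hNc : IsMulCommutative N := H1.isMulCommutative_of_minimal_of_solvable N hNb hmin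
  obtain ⟨p, hp, hNp⟩ := H1.exists_prime_pow_eq_one_of_minimal N hNb hmin
  haveI : Fact p.Prime := ⟨hp⟩
  have hNpg : IsPGroup p N := H1.isPGroup_of_pow_eq_one N hNp
  have hKi : ∀ q : Nat.Primes, ∃ k, (K q).index = (q : ℕ) ^ k := fun q => ⟨_, hK q⟩
  by_cases hT : N ⊔ C = ⊤
  · obtain ⟨R, hRc, ⟨k, hk⟩, hRH⟩ := carter_eq_hall_normalizer N hNpg hC hT
    set Kp := K ⟨p, hp⟩ with hKp
    -- Kp ≤ C
    have hKpC : Kp ≤ C := by
      have h1 : C.index ∣ Nat.card N := by
        have h1 : C.relIndex (N ⊔ C) = C.relIndex N := relIndex_sup_eq C N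
        rw [hT, Subgroup.relIndex_top_right] at h1
        rw [h1, Subgroup.relIndex]
        exact Subgroup.index_dvd_card _
      obtain ⟨j, hj⟩ := IsPGroup.iff_card.mp hNpg
      obtain ⟨b, hb⟩ := hred ⟨p, hp⟩
      change Kp.relIndex C = p ^ b at hb
      have h2 : (C ⊓ Kp).relIndex C * C.index = (C ⊓ Kp).index := Subgroup.relIndex_mul_index inf_le_left
      rw [Subgroup.inf_relIndex_left, hb] at h2
      have h3 : (C ⊓ Kp).relIndex Kp * Kp.index = (C ⊓ Kp).index := Subgroup.relIndex_mul_index inf_le_right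
      have h4 : (C ⊓ Kp).relIndex Kp ∣ p ^ (b + j) := by
        rw [pow_add, ← hj]
        refine (Dvd.intro _ h3).trans ?_
        rw [← h2]
        exact mul_dvd_mul_left _ h1
      have h5 : (C ⊓ Kp).relIndex Kp ∣ Nat.card Kp := by
        rw [Subgroup.relIndex]; exact Subgroup.index_dvd_card _
      have h6 := Nat.eq_one_of_dvd_coprimes ((IsComplementSystem.coprime hK ⟨p, hp⟩).pow_right (b + j)) h5 h4
      rw [Subgroup.relIndex_eq_one] at h6
      exact h6.trans inf_le_left
    have hRC : R ≤ C := by rw [hRH]; exact Subgroup.le_normalizer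
    have hRKp : Kp ≤ R := by
      have hRn : (R.subgroupOf C).Normal := by
        rw [Subgroup.normal_subgroupOf_iff_le_normalizer hRC, ← hRH]
      intro y hy
      have h3 : (orderOf y).Coprime p := by
        apply Nat.Coprime.coprime_dvd_left _ (IsComplementSystem.coprime hK ⟨p, hp⟩)
        rw [← Subgroup.orderOf_mk y hy]; exact _root_.orderOf_dvd_natCard _
      have h4 : orderOf ((⟨y, hKpC hy⟩ : C) : C ⧸ R.subgroupOf C) ∣ orderOf y := by
        have := orderOf_map_dvd (QuotientGroup.mk' (R.subgroupOf C)) ⟨y, hKpC hy⟩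
        rwa [Subgroup.orderOf_mk] at this
      have h5 : orderOf ((⟨y, hKpC hy⟩ : C) : C ⧸ R.subgroupOf C) ∣ p ^ k := by
        have h6 : (R.subgroupOf C).index ∣ R.index := Dvd.intro _ (Subgroup.relIndex_mul_index hRC)
        rw [hk] at h6
        exact (_root_.orderOf_dvd_natCard _).trans h6
      have h6 := Nat.eq_one_of_dvd_coprimes (h3.pow_right k) h4 h5
      rw [orderOf_eq_one_iff, QuotientGroup.eq_one_iff, Subgroup.mem_subgroupOf] at h6
      exact h6
    have hEq : Kp = R := by
      apply Subgroup.eq_of_le_of_card_ge hRKp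
      have h1 : Kp.index = R.index := by
        have h2 := hK ⟨p, hp⟩
        change Kp.index = _ at h2
        rw [h2]
        exact (index_eq_of hp ⟨k, hk⟩ hRc).symm
      have h2 := Kp.card_mul_index
      rw [h1, ← R.card_mul_index] at h2
      exact (Nat.eq_of_mul_eq_mul_right (Nat.pos_of_ne_zero Subgroup.index_ne_zero_of_finite) h2).ge
    rw [hRH, ← hEq]
    exact iInf_le _ _
  · set T := N ⊔ C with hTdef
    have hNT : N ≤ T := le_sup_left
    have hCT : C ≤ T := le_sup_right
    have hmem : ∀ y : G, QuotientGroup.mk' N y ∈ C.map (QuotientGroup.mk' N) ↔ y ∈ N ⊔ C := by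
      intro y
      rw [Subgroup.mem_sup_of_normal_left]
      constructor
      · rintro ⟨t, ht, htx⟩
        rw [QuotientGroup.mk'_apply, QuotientGroup.mk'_apply, QuotientGroup.eq] at htx
        refine ⟨t * (t⁻¹ * y) * t⁻¹, hN.conj_mem _ htx t, t, ht, by group⟩
      · rintro ⟨a, ha, t, ht, rfl⟩
        refine ⟨t, ht, ?_⟩
        rw [map_mul]
        have : QuotientGroup.mk' N a = 1 := (QuotientGroup.eq_one_iff a).mpr ha
        rw [this, one_mul]
    have hcard : Nat.card G = Nat.card N * Nat.card (G ⧸ N) := by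
      rw [Subgroup.card_eq_card_quotient_mul_card_subgroup N, mul_comm]
    have hN1 : 1 < Nat.card N := by
      have := Nat.card_pos (α := N)
      have h2 : Nat.card N ≠ 1 := fun h => hNb (Subgroup.card_eq_one.mp h)
      omega
    have hlt : Nat.card (G ⧸ N) < n := by
      rw [← hn, hcard]
      exact lt_mul_of_one_lt_left Nat.card_pos hN1
    have hq := ih _ hlt (G ⧸ N) rfl inferInstance (C.map (QuotientGroup.mk' N)) (fun q => (K q).map (QuotientGroup.mk' N)) (carter_map hsol N hC)
      (sys_map hK N) (by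
        intro q
        obtain ⟨b, hb⟩ := hred q
        have h1 : ((K q).map (QuotientGroup.mk' N)).relIndex (C.map (QuotientGroup.mk' N)) ∣ (q : ℕ) ^ b := by
          rw [← Subgroup.relIndex_comap, Subgroup.comap_map_eq, QuotientGroup.ker_mk', ← hb]
          exact Subgroup.relIndex_dvd_of_le_left _ le_sup_left
        obtain ⟨k, -, hk⟩ := (Nat.dvd_prime_pow q.2).mp h1
        exact ⟨k, hk⟩)
    have hDT : Cfsg.systemNormalizer K ≤ T := by
      intro x hx
      rw [hTdef, ← hmem]
      apply hq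
      rw [sys_quotient hsol hK N]
      exact ⟨x, hx, rfl⟩
    have hTlt : Nat.card T < n := by rw [← hn]; exact H1.card_lt_of_ne_top hT
    have hrT : ∀ q : Nat.Primes, ∃ k, (K q).relIndex T = (q : ℕ) ^ k := fun q => relIndex_reduce q.2 (hKi q) (hred q)
    have hT2 := ih _ hTlt T rfl inferInstance (C.subgroupOf T) (fun q => (K q).subgroupOf T) (carter_subgroupOf hC hCT) (by
      intro q
      apply index_eq_of q.2 (hrT q)
      apply Nat.Coprime.coprime_dvd_left _ (IsComplementSystem.coprime hK q)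
      rw [← Subgroup.card_map_of_injective T.subtype_injective, Subgroup.subgroupOf_map_subtype]
      exact Subgroup.card_dvd_of_le inf_le_left) (by
      intro q
      obtain ⟨b, hb⟩ := hred q
      refine ⟨b, ?_⟩
      rw [← hb]
      have h1 : (K q).subgroupOf T = (K q).comap T.subtype := rfl
      rw [h1, Subgroup.relIndex_comap, Subgroup.subgroupOf_map_subtype, inf_eq_left.mpr hCT])
    intro x hx
    have hxT := hDT hx
    have h1 : (⟨x, hxT⟩ : T) ∈ Cfsg.systemNormalizer (fun q => (K q).subgroupOf T) := by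
      rw [Cfsg.systemNormalizer, Subgroup.mem_iInf]
      intro q
      have hxq : x ∈ normalizer ((K q : Subgroup G) : Set G) := (iInf_le _ q : Cfsg.systemNormalizer K ≤ _) hx
      apply Subgroup.mem_normalizer_fintype
      intro y hy
      exact (Subgroup.mem_normalizer_iff.mp hxq _).mp hy
    exact hT2 h1

/-- complement system reducing into a given nilpotent subgroup -/
theorem exists_system_of_nilpotent {G : Type u} [Group G] [Finite G] (hs : Group.IsSolvable G) (C : Subgroup G) (hC : Group.IsNilpotent C) :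
    ∃ K : Nat.Primes → Subgroup G, Cfsg.IsComplementSystem K ∧ ∀ p : Nat.Primes, ∃ k, (K p).relIndex C = (p : ℕ) ^ k := by
  have key : ∀ p : Nat.Primes, ∃ K : Subgroup G, K.index = (p : ℕ) ^ (Nat.card G).factorization p ∧ ∃ k, K.relIndex C = (p : ℕ) ^ k := by
    intro p
    have hp : (p : ℕ).Prime := p.2
    haveI := Fact.mk hp
    obtain ⟨R, hRC, -, hRc, ⟨k, hk⟩, -, -⟩ := nil_split C hC p
    have hpow := (Nat.ordProj_mul_ordCompl_eq_self (Nat.card G) p).symm
    rw [mul_comm] at hpow
    have hcop : (Nat.card G / (p : ℕ) ^ (Nat.card G).factorization p).Coprime ((p : ℕ) ^ (Nat.card G).factorization p) :=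
      (Nat.Coprime.pow_left _ ((Nat.Prime.coprime_iff_not_dvd hp).mpr (Nat.not_dvd_ordCompl hp Nat.card_pos.ne'))).symm
    obtain ⟨Q, hQ⟩ := H1.hall_exists hs hpow hcop
    obtain ⟨g, hg⟩ := H1.hall_dominate hs hpow hcop hQ (K := R) (hRc.pow_right _)
    refine ⟨MulAut.conj g • Q, ?_, ?_⟩
    · apply Nat.eq_of_mul_eq_mul_left (Nat.card_pos (α := (MulAut.conj g • Q : Subgroup G)))
      rw [Subgroup.card_mul_index, L0.card_conj_smul, hQ]; exact hpow
    · have h1 : (MulAut.conj g • Q : Subgroup G).relIndex C ∣ R.relIndex C := Subgroup.relIndex_dvd_of_le_left _ hg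
      have h2 : R.relIndex C = (p : ℕ) ^ k := by
        have h3 := Subgroup.relIndex_mul_relIndex ⊥ R C bot_le hRC
        rw [Subgroup.relIndex_bot_left, Subgroup.relIndex_bot_left, hk] at h3
        exact Nat.eq_of_mul_eq_mul_left Nat.card_pos h3
      rw [h2] at h1
      obtain ⟨j, -, hj⟩ := (Nat.dvd_prime_pow hp).mp h1
      exact ⟨j, hj⟩
  choose K hK1 hK2 using key
  exact ⟨K, hK1, hK2⟩

end Cfsg.Agent.H3
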