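import Mathlib
import Cfsg.Prelude.Def_Solvable
import Cfsg.Agent.H3.Basic
import Cfsg.Agent.H3.Frob

set_option autoImplicit false

/-! Finite subgroups of division rings are Frobenius complements. -/

namespace Cfsg.Agent.H3
open Cfsg

universe u v

theorem frobenius_down {L : Type u} [Group L] [Finite L] (C : Subgroup L) (hC : IsFrobeniusComplement C) :
    ∃ (L' : Type) (_ : Group L') (_ : Finite L') (C' : Subgroup L'), IsFrobeniusComplement C' ∧ Nonempty (C ≃* C') := by
  have e : Shrink.{0} L ≃* L := Shrink.mulEquiv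
  have hmem : ∀ x : Shrink.{0} L, x ∈ C.map e.symm.toMonoidHom ↔ e x ∈ C := by
    intro x
    exact Subgroup.mem_map_equiv
  refine ⟨Shrink.{0} L, inferInstance, inferInstance, C.map e.symm.toMonoidHom, ?_, ⟨e.symm.subgroupMap C⟩⟩
  rw [isFrobeniusComplement_iff] at hC ⊢
  obtain ⟨h1, h2, h3⟩ := hC
  refine ⟨?_, ?_, ?_⟩
  · intro h
    apply h1
    exact (Subgroup.map_eq_bot_iff_of_injective _ e.symm.injective).mp h
  · intro h
    apply h2
    rw [eq_top_iff]
    intro x _
    have h4 : e.symm x ∈ C.map e.symm.toMonoidHom := by rw [h]; trivial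
    rw [hmem, MulEquiv.apply_symm_apply] at h4
    exact h4
  · intro g hg x hx hx2
    rw [hmem] at hg hx hx2
    have h4 := h3 (e g) hg (e x) hx (by rwa [map_mul, map_mul, map_inv] at hx2)
    exact (map_eq_one_iff e e.injective).mp h4

/-- fixed-point-free action on a finite additive group -/
theorem frobenius_of_action {H : Type u} [Group H] [Finite H] [Nontrivial H] {A : Type v} [AddCommGroup A] [Finite A]
    [Nontrivial A] [DistribMulAction H A] (hfpf : ∀ h : H, h ≠ 1 → ∀ a : A, h • a = a → a = 0) :
    ∃ (L : Type) (_ : Group L) (_ : Finite L) (C : Subgroup L), IsFrobeniusComplement C ∧ Nonempty (H ≃* C) := by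
  let φ : H →* MulAut (Multiplicative A) :=
    { toFun := fun h => AddEquiv.toMultiplicative (DistribMulAction.toAddEquiv A h)
      map_one' := by ext a; exact one_smul H (Multiplicative.toAdd a)
      map_mul' := by intro g h; ext a; exact mul_smul g h (Multiplicative.toAdd a) }
  have hfin : Finite (Multiplicative A ⋊[φ] H) := Finite.of_equiv _ SemidirectProduct.equivProd.symm
  have hN : (SemidirectProduct.inl : Multiplicative A →* Multiplicative A ⋊[φ] H).range.Normal := by
    rw [SemidirectProduct.range_inl_eq_ker_rightHom]; infer_instance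
  have hF := frobenius_of_fpf (SemidirectProduct.inl : Multiplicative A →* Multiplicative A ⋊[φ] H).range
    (SemidirectProduct.inr : H →* Multiplicative A ⋊[φ] H).range ?_ ?_ ?_ ?_ ?_
  · obtain ⟨L', i1, i2, C', h1, ⟨e⟩⟩ := frobenius_down _ hF.1
    exact ⟨L', i1, i2, C', h1, ⟨(MonoidHom.ofInjective SemidirectProduct.inr_injective).trans e⟩⟩
  · rw [eq_top_iff]
    intro g _
    rw [← SemidirectProduct.inl_left_mul_inr_right g]
    exact Subgroup.mul_mem_sup ⟨_, rfl⟩ ⟨_, rfl⟩
  · intro h
    obtain ⟨a, ha⟩ := exists_ne (0 : A)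
    have h1 : (SemidirectProduct.inl (Multiplicative.ofAdd a) : Multiplicative A ⋊[φ] H) ∈
      (SemidirectProduct.inl : Multiplicative A →* Multiplicative A ⋊[φ] H).range := ⟨_, rfl⟩
    rw [h, Subgroup.mem_bot] at h1
    have h2 := SemidirectProduct.inl_injective (h1.trans (map_one _).symm)
    exact ha (congrArg Multiplicative.toAdd h2)
  · intro h
    obtain ⟨a, ha⟩ := exists_ne (1 : H)
    have h1 : (SemidirectProduct.inr a : Multiplicative A ⋊[φ] H) ∈
      (SemidirectProduct.inr : H →* Multiplicative A ⋊[φ] H).range := ⟨_, rfl⟩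
    rw [h, Subgroup.mem_bot] at h1
    exact ha (SemidirectProduct.inr_injective (h1.trans (map_one _).symm))
  · rintro _ ⟨h, rfl⟩ h1 _ ⟨n, rfl⟩ hc
    have hh : h ≠ 1 := fun h' => h1 (by rw [h', map_one])
    have h2 : (SemidirectProduct.inl (φ h n) : Multiplicative A ⋊[φ] H) = SemidirectProduct.inl n := by
      rw [SemidirectProduct.inl_aut, hc, map_inv, mul_inv_cancel_right]
    have h3 := SemidirectProduct.inl_injective h2
    have h4 : Multiplicative.toAdd n = 0 := hfpf h hh _ (congrArg Multiplicative.toAdd h3)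
    have h5 : n = 1 := h4
    rw [h5, map_one]
  · rw [eq_bot_iff]
    rintro g ⟨⟨n, rfl⟩, ⟨h, hh⟩⟩
    have h1 := congrArg SemidirectProduct.right hh
    simp only [SemidirectProduct.right_inr, SemidirectProduct.right_inl] at h1
    rw [Subgroup.mem_bot, ← hh, h1, map_one]

theorem exists_frobenius_of_divisionRing {D : Type u} [DivisionRing D] (H : Subgroup Dˣ) [Finite H] (hH : H ≠ ⊥) :
    ∃ (L : Type) (_ : Group L) (_ : Finite L) (C : Subgroup L), IsFrobeniusComplement C ∧ Nonempty (H ≃* C) := by
  classical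
  have hnt : Nontrivial H := (Subgroup.nontrivial_iff_ne_bot H).mpr hH
  set R : Submodule ℤ D := Submodule.span ℤ (Set.range (fun h : H => ((h : Dˣ) : D))) with hR
  have hRfin : Module.Finite ℤ R := Module.Finite.span_of_finite ℤ (Set.finite_range _)
  have hHR : ∀ h : H, ((h : Dˣ) : D) ∈ R := fun h => Submodule.subset_span ⟨h, rfl⟩
  have hmul : ∀ (h : H) (r : D), r ∈ R → ((h : Dˣ) : D) * r ∈ R := by
    intro h r hr
    induction hr using Submodule.span_induction with
    | mem x hx =>
      obtain ⟨k, rfl⟩ := hx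
      have := hHR (h * k)
      simpa using this
    | zero => rw [mul_zero]; exact R.zero_mem
    | add x y _ _ hx hy => rw [mul_add]; exact R.add_mem hx hy
    | smul a x _ hx => rw [mul_smul_comm]; exact R.smul_mem a hx
  -- the prime
  obtain ⟨q, hq, hqH, r0, hr0⟩ : ∃ q : ℕ, q.Prime ∧ ¬ q ∣ Nat.card H ∧ ∃ r : R, ∀ s : R, r ≠ (q : ℤ) • s := by
    obtain ⟨p, hp⟩ := CharP.exists D
    rcases CharP.char_is_prime_or_zero D p with hpp | hp0
    · refine ⟨p, hpp, ?_, ⟨1, by have := hHR 1; simpa using this⟩, ?_⟩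
      · intro hd
        have := Fact.mk hpp
        obtain ⟨h, hh⟩ := exists_prime_orderOf_dvd_card' (G := H) p hd
        have h1 : (((h : Dˣ) : D)) ^ p = 1 := by
          have h2 : h ^ p = 1 := by rw [← hh, pow_orderOf_eq_one]
          have h3 := congrArg (fun x : H => ((x : Dˣ) : D)) h2
          simpa using h3
        have h2 : (((h : Dˣ) : D) - 1) ^ p = 0 := by
          rw [sub_pow_char_of_commute p (Commute.one_right _), h1, one_pow, sub_self]
        have h3 : ((h : Dˣ) : D) = 1 := sub_eq_zero.mp (pow_eq_zero_iff hpp.ne_zero |>.mp h2)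
        have h4 : h = 1 := Subtype.ext (Units.ext h3)
        rw [h4, orderOf_one] at hh
        exact hpp.one_lt.ne hh
      · intro s hs
        have h1 := congrArg Subtype.val hs
        have h2 : ((p : ℤ) • (s : D)) = 0 := by
          rw [zsmul_eq_mul, Int.cast_natCast, CharP.cast_eq_zero, zero_mul]
        have h3 : (1 : D) = (p : ℤ) • (s : D) := h1
        rw [h2] at h3
        exact one_ne_zero h3
    · subst hp0
      have hcz : CharZero D := CharP.charP_to_charZero D
      obtain ⟨q, hq1, hq⟩ := Nat.exists_infinite_primes (Nat.card H + 1)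
      refine ⟨q, hq, ?_, ?_⟩
      · intro h
        have := Nat.le_of_dvd Nat.card_pos h
        omega
      · have hfree : Module.Free ℤ R := inferInstance
        have hRnt : Nontrivial R := ⟨⟨⟨1, by have := hHR 1; simpa using this⟩, 0, fun h => one_ne_zero (congrArg Subtype.val h)⟩⟩
        let b := Module.Free.chooseBasis ℤ R
        obtain ⟨i⟩ : Nonempty (Module.Free.ChooseBasisIndex ℤ R) := b.index_nonempty
        refine ⟨b i, fun s hs => ?_⟩
        have h1 := congrArg (fun x => b.repr x i) hs
        simp only [Module.Basis.repr_self, Finsupp.single_eq_same, map_smul, Finsupp.smul_apply, smul_eq_mul] at h1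
        have h2 : (q : ℤ) ∣ 1 := ⟨_, h1⟩
        have h3 : q ∣ 1 := by exact_mod_cast h2
        exact hq.one_lt.ne' (Nat.dvd_one.mp h3)
  set N : Submodule ℤ R := LinearMap.range ((q : ℤ) • (LinearMap.id : R →ₗ[ℤ] R)) with hN
  have hqA : ∀ a : R ⧸ N, (q : ℤ) • a = 0 := by
    intro a
    induction a using Submodule.Quotient.induction_on with | _ r =>
    rw [← Submodule.Quotient.mk_smul, Submodule.Quotient.mk_eq_zero]
    exact ⟨r, rfl⟩
  have hAfin : Finite (R ⧸ N) := by
    apply Module.finite_of_fg_torsion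
    intro a
    exact ⟨⟨(q : ℤ), mem_nonZeroDivisors_of_ne_zero (by exact_mod_cast hq.ne_zero)⟩, hqA a⟩
  have hAnt : Nontrivial (R ⧸ N) := by
    refine ⟨⟨Submodule.Quotient.mk r0, 0, ?_⟩⟩
    intro h
    rw [Submodule.Quotient.mk_eq_zero] at h
    obtain ⟨s, hs⟩ := h
    exact hr0 s hs.symm
  let f : H → (R →ₗ[ℤ] R) := fun h => (LinearMap.mulLeft ℤ ((h : Dˣ) : D)).restrict (fun r hr => hmul h r hr)
  have hfN : ∀ h, N ≤ N.comap (f h) := by
    rintro h _ ⟨s, rfl⟩
    exact ⟨f h s, ((f h).map_smul (q : ℤ) s).symm⟩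
  let ρ : H →* Module.End ℤ (R ⧸ N) :=
    { toFun := fun h => N.mapQ N (f h) (hfN h)
      map_one' := by
        apply LinearMap.ext
        intro a
        induction a using Submodule.Quotient.induction_on with | _ r =>
        show (Submodule.Quotient.mk (f 1 r) : R ⧸ N) = Submodule.Quotient.mk r
        congr 1
        apply Subtype.ext
        show (((1 : H) : Dˣ) : D) * (r : D) = r
        simp
      map_mul' := by
        intro g h
        apply LinearMap.ext
        intro a
        induction a using Submodule.Quotient.induction_on with | _ r =>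
        show (Submodule.Quotient.mk (f (g * h) r) : R ⧸ N) = Submodule.Quotient.mk (f g (f h r))
        congr 1
        apply Subtype.ext
        show (((g * h : H) : Dˣ) : D) * (r : D) = ((g : Dˣ) : D) * (((h : Dˣ) : D) * (r : D))
        simp [mul_assoc] }
  let : DistribMulAction H (R ⧸ N) := DistribMulAction.compHom (R ⧸ N) ρ
  refine frobenius_of_action (H := H) (A := R ⧸ N) ?_
  intro h hh a ha
  set n := orderOf h with hn
  have hpow : ∀ i : ℕ, h ^ i • a = a := by
    intro i
    induction i with
    | zero => rw [pow_zero, one_smul]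
    | succ i ih => rw [pow_succ, mul_smul, ha, ih]
  have hnA : (n : ℤ) • a = 0 := by
    have h1 : (n : ℤ) • a = ∑ i ∈ Finset.range n, h ^ i • a := by
      rw [Finset.sum_congr rfl (fun i _ => hpow i), Finset.sum_const, Finset.card_range, natCast_zsmul]
    rw [h1]
    induction a using Submodule.Quotient.induction_on with | _ r =>
    have h2 : ∀ i : ℕ, h ^ i • (Submodule.Quotient.mk r : R ⧸ N) = Submodule.Quotient.mk (f (h ^ i) r) := fun i => rfl
    rw [Finset.sum_congr rfl (fun i _ => h2 i)]
    have h3 : ∑ i ∈ Finset.range n, (Submodule.Quotient.mk (f (h ^ i) r) : R ⧸ N) = N.mkQ (∑ i ∈ Finset.range n, f (h ^ i) r) := by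
      rw [map_sum]; rfl
    rw [h3]
    have h4 : ∑ i ∈ Finset.range n, f (h ^ i) r = 0 := by
      apply Subtype.ext
      rw [AddSubmonoidClass.coe_finsetSum]
      have h5 : ∀ i, ((f (h ^ i) r : R) : D) = ((h : Dˣ) : D) ^ i * (r : D) := by
        intro i
        show (((h ^ i : H) : Dˣ) : D) * (r : D) = _
        simp
      rw [Finset.sum_congr rfl (fun i _ => h5 i), ← Finset.sum_mul]
      have h6 := mul_geom_sum ((h : Dˣ) : D) n
      have h7 : ((h : Dˣ) : D) ^ n = 1 := by
        have h8 : h ^ n = 1 := pow_orderOf_eq_one h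
        have h9 := congrArg (fun x : H => ((x : Dˣ) : D)) h8
        simpa using h9
      rw [h7, sub_self, mul_eq_zero] at h6
      rcases h6 with h6 | h6
      · exfalso
        apply hh
        exact Subtype.ext (Units.ext (sub_eq_zero.mp h6))
      · rw [h6, zero_mul]; rfl
    rw [h4, map_zero]
  have hco : Int.gcd (n : ℤ) (q : ℤ) = 1 := by
    rw [Int.gcd_natCast_natCast, Nat.gcd_comm]
    refine (Nat.Prime.coprime_iff_not_dvd hq).mpr (fun h => hqH (h.trans ?_))
    exact orderOf_dvd_natCard _
  have h1 := Int.gcd_eq_gcd_ab (n : ℤ) (q : ℤ)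
  rw [hco] at h1
  have h2 : a = ((1 : ℕ) : ℤ) • a := by simp
  rw [h2, h1, add_smul, mul_comm, mul_smul, hnA, smul_zero, zero_add, mul_comm, mul_smul, hqA, smul_zero]

end Cfsg.Agent.H3
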