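import Mathlib

set_option autoImplicit false
set_option linter.unusedSectionVars false
set_option linter.unusedSimpArgs false
set_option linter.unusedVariables false
set_option linter.style.haveILetI false
open Subgroup

namespace Cfsg.Agent.H3

universe u

/-! Frobenius' theorem on the number of solutions of `x^n = 1` (Isaacs–Robinson). -/

theorem card_isConj {G : Type u} [Group G] [Finite G] (g : G) :
    Nat.card {y : G // IsConj g y} = (centralizer ({g} : Set G)).index := by
  classical
  have h1 : Nat.card {y : G // IsConj g y} = (MulAction.orbit (ConjAct G) g).ncard := by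
    rw [← Nat.card_coe_set_eq]
    apply Nat.card_congr
    apply Equiv.subtypeEquivRight
    intro y
    rw [ConjAct.mem_orbit_conjAct]
    exact isConj_comm
  have h2 := MulAction.index_stabilizer (G := ConjAct G) g
  rw [h1, ← h2]
  have h3 : (centralizer ({g} : Set G)).index = (MulAction.stabilizer (ConjAct G) g).index := by
    have h4 : (MulAction.stabilizer (ConjAct G) g).comap (ConjAct.toConjAct (G := G)).toMonoidHom = centralizer ({g} : Set G) := by
      ext x
      rw [mem_comap, MulAction.mem_stabilizer_iff, mem_centralizer_singleton_iff]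
      show ConjAct.toConjAct x • g = g ↔ _
      rw [ConjAct.toConjAct_smul]
      constructor
      · intro h
        calc x * g = (x * g * x⁻¹) * x := by group
          _ = g * x := by rw [h]
      · intro h; rw [h]; group
    rw [← h4]
    exact Subgroup.index_comap_of_surjective _ (ConjAct.toConjAct (G := G)).surjective
  exact h3.symm

theorem sum_dvd_of_fiber {α β : Type*} [Fintype α] [Fintype β] [DecidableEq β] (g : α → β) (f : α → ℕ) (s : ℕ)
    (h : ∀ b, s ∣ ∑ a with g a = b, f a) : s ∣ ∑ a, f a := by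
  rw [← Finset.sum_fiberwise Finset.univ g f]
  exact Finset.dvd_sum fun b _ => h b

/-- summing a class function over a normal subset -/
theorem class_dvd {G : Type u} [Group G] [Finite G] (P : G → Prop) (hP : ∀ x y, IsConj x y → P x → P y)
    (f : G → ℕ) (hf : ∀ x y, IsConj x y → f x = f y) (s : ℕ)
    (h : ∀ y, P y → s ∣ (centralizer ({y} : Set G)).index * f y) [Fintype {y // P y}] : s ∣ ∑ y : {y // P y}, f y := by
  classical
  haveI : Fintype G := Fintype.ofFinite G
  haveI : Fintype (ConjClasses G) := Fintype.ofFinite _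
  apply sum_dvd_of_fiber (fun y : {y // P y} => ConjClasses.mk (y : G)) (fun y => f y)
  intro b
  by_cases hb : ∃ y0 : {y // P y}, ConjClasses.mk (y0 : G) = b
  · obtain ⟨y0, rfl⟩ := hb
    have h1 : ∀ a ∈ Finset.univ.filter (fun a : {y // P y} => ConjClasses.mk (a : G) = ConjClasses.mk (y0 : G)), f (a : G) = f (y0 : G) := by
      intro a ha
      rw [Finset.mem_filter, ConjClasses.mk_eq_mk_iff_isConj] at ha
      exact hf _ _ ha.2
    rw [Finset.sum_congr rfl h1, Finset.sum_const, smul_eq_mul]
    have h2 : (Finset.univ.filter (fun a : {y // P y} => ConjClasses.mk (a : G) = ConjClasses.mk (y0 : G))).card =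
        (centralizer ({(y0 : G)} : Set G)).index := by
      rw [← card_isConj, ← Fintype.card_subtype, ← Nat.card_eq_fintype_card]
      apply Nat.card_congr
      refine ⟨fun a => ⟨((a : {y // P y}) : G), ?_⟩, fun y => ⟨⟨y, hP _ _ y.2 y0.2⟩, ?_⟩, fun a => rfl, fun y => rfl⟩
      · exact (ConjClasses.mk_eq_mk_iff_isConj.1 a.2).symm
      · exact ConjClasses.mk_eq_mk_iff_isConj.2 (IsConj.symm y.2)
    rw [h2]
    exact h y0 y0.2
  · have h1 : (Finset.univ.filter (fun a : {y // P y} => ConjClasses.mk (a : G) = b)) = ∅ := by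
      rw [Finset.filter_eq_empty_iff]
      intro a _ ha
      exact hb ⟨a, ha⟩
    rw [h1, Finset.sum_empty]
    exact dvd_zero s

/-- solutions of `z^s=1` in a central quotient by a cyclic group of order prime to `s` -/
theorem card_sol_quot {C : Type u} [Group C] [Finite C] (y : C) (hy : y ∈ center C) (s : ℕ) (hs : (orderOf y).Coprime s)
    [(zpowers y).Normal] : Nat.card {z : C // z ^ s = 1} = Nat.card {w : C ⧸ zpowers y // w ^ s = 1} := by
  have hcomm : ∀ (i : ℤ) (z : C), Commute z (y ^ i) := fun i z => by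
    have h1 : Commute z y := (mem_center_iff.1 hy z)
    exact h1.zpow_right i
  apply Nat.card_congr
  apply Equiv.ofBijective (fun z : {z : C // z ^ s = 1} => (⟨((z : C) : C ⧸ zpowers y), by
    rw [← QuotientGroup.mk_pow, z.2]; rfl⟩ : {w : C ⧸ zpowers y // w ^ s = 1}))
  constructor
  · rintro ⟨z, hz⟩ ⟨z', hz'⟩ h
    have h1 : (z : C ⧸ zpowers y) = z' := congrArg Subtype.val h
    rw [QuotientGroup.eq] at h1
    obtain ⟨i, hi⟩ := h1
    have hi : y ^ i = z⁻¹ * z' := hi
    have h2 : z' = z * y ^ i := by rw [hi]; group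
    have h3 : y ^ (i * s) = 1 := by
      have h4 : (z * y ^ i) ^ s = z ^ s * (y ^ i) ^ s := (hcomm i z).mul_pow s
      rw [← h2, hz', hz, one_mul] at h4
      rw [zpow_mul, zpow_natCast]; exact h4.symm
    rw [← orderOf_dvd_iff_zpow_eq_one] at h3
    have h5 : (orderOf y : ℤ) ∣ i := by
      apply IsCoprime.dvd_of_dvd_mul_right _ h3
      exact Nat.isCoprime_iff_coprime.2 hs
    rw [orderOf_dvd_iff_zpow_eq_one] at h5
    apply Subtype.ext
    show z = z'
    rw [h2, h5, mul_one]
  · rintro ⟨w, hw⟩
    obtain ⟨z, rfl⟩ := QuotientGroup.mk_surjective w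
    rw [← QuotientGroup.mk_pow, QuotientGroup.eq_one_iff] at hw
    obtain ⟨j, hj⟩ := hw
    have hj : y ^ j = z ^ s := hj
    -- a * orderOf y + b * s = 1
    have h1 : IsCoprime (orderOf y : ℤ) (s : ℤ) := Nat.isCoprime_iff_coprime.2 hs
    obtain ⟨a, b, hab⟩ := h1
    refine ⟨⟨z * y ^ (-(j * b)), ?_⟩, ?_⟩
    · rw [(hcomm _ z).mul_pow, ← hj, ← zpow_natCast, ← zpow_mul, ← zpow_add]
      rw [← orderOf_dvd_iff_zpow_eq_one]
      refine ⟨j * a, ?_⟩
      have : j = j * (a * (orderOf y : ℤ) + b * s) := by rw [hab, mul_one]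
      linear_combination this
    · apply Subtype.ext
      show ((z * y ^ (-(j * b)) : C) : C ⧸ zpowers y) = z
      rw [QuotientGroup.eq]
      refine ⟨j * b, ?_⟩
      show y ^ (j * b) = (z * y ^ (-(j * b)))⁻¹ * z
      have h2 : (z * y ^ (-(j * b)))⁻¹ * z = (y ^ (-(j * b)))⁻¹ := by group
      rw [h2, zpow_neg, inv_inv]

theorem card_sol_gcd {K : Type u} [Group K] [Finite K] (s : ℕ) :
    Nat.card {w : K // w ^ s = 1} = Nat.card {w : K // w ^ (Nat.gcd s (Nat.card K)) = 1} := by
  apply Nat.card_congr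
  apply Equiv.subtypeEquivRight
  intro w
  rw [← orderOf_dvd_iff_pow_eq_one, ← orderOf_dvd_iff_pow_eq_one, Nat.dvd_gcd_iff]
  exact ⟨fun h => ⟨h, _root_.orderOf_dvd_natCard w⟩, fun h => h.1⟩

/-- elements generating a given cyclic subgroup -/
theorem card_gens {G : Type u} [Group G] [Finite G] (x : G) :
    Nat.card {y : G // zpowers y = zpowers x} = (orderOf x).totient := by
  classical
  haveI : Fintype ↥(zpowers x) := Fintype.ofFinite _
  have h1 := IsCyclic.card_orderOf_eq_totient (α := ↥(zpowers x)) (d := orderOf x) (by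
    rw [← Nat.card_eq_fintype_card, Nat.card_zpowers])
  rw [← h1, ← Fintype.card_subtype, ← Nat.card_eq_fintype_card]
  apply Nat.card_congr
  have k1 : ∀ y : {y : G // zpowers y = zpowers x}, (y : G) ∈ zpowers x := by
    rintro ⟨y, hy⟩
    show y ∈ zpowers x
    rw [← hy]; exact mem_zpowers _
  refine ⟨fun y => ⟨⟨y, k1 y⟩, ?_⟩, fun z => ⟨z.1.1, ?_⟩, fun y => rfl, fun z => rfl⟩
  · rw [Subgroup.orderOf_mk, ← Nat.card_zpowers, y.2, Nat.card_zpowers]
  · obtain ⟨z, hz⟩ := z
    apply Subgroup.eq_of_le_of_card_ge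
    · rw [zpowers_le]; exact z.2
    · rw [Nat.card_zpowers, Nat.card_zpowers]
      show orderOf x ≤ orderOf (z : G)
      rw [Subgroup.orderOf_coe, hz]

/-- a set of elements closed under passing to other generators, all of order divisible by `p^e`, has size divisible by `p^(e-1)` -/
theorem gens_dvd {G : Type u} [Group G] [Finite G] {p e : ℕ} (hp : p.Prime) (he : 0 < e) (P : G → Prop)
    (hP : ∀ x y, zpowers x = zpowers y → P x → P y) (hPe : ∀ x, P x → p ^ e ∣ orderOf x) : p ^ (e - 1) ∣ Nat.card {x : G // P x} := by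
  classical
  haveI : Fintype G := Fintype.ofFinite G
  haveI : Fintype (Subgroup G) := Fintype.ofFinite _
  rw [Nat.card_eq_fintype_card, ← Finset.card_univ, Finset.card_eq_sum_ones]
  apply sum_dvd_of_fiber (fun y : {y // P y} => zpowers (y : G)) (fun _ => 1)
  intro b
  by_cases hb : ∃ y0 : {y // P y}, zpowers (y0 : G) = b
  · obtain ⟨y0, rfl⟩ := hb
    rw [← Finset.card_eq_sum_ones, ← Fintype.card_subtype, ← Nat.card_eq_fintype_card]
    have h1 : Nat.card {x : {y // P y} // zpowers (x : G) = zpowers (y0 : G)} = Nat.card {y : G // zpowers y = zpowers (y0 : G)} := by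
      apply Nat.card_congr
      exact ⟨fun x => ⟨x.1.1, x.2⟩, fun y => ⟨⟨y.1, hP _ _ y.2.symm y0.2⟩, y.2⟩, fun _ => rfl, fun _ => rfl⟩
    rw [h1, card_gens]
    obtain ⟨m, hm⟩ := hPe _ y0.2
    have h2 : Nat.totient (p ^ e) ∣ Nat.totient (orderOf (y0 : G)) := Nat.totient_dvd_of_dvd ⟨m, hm⟩
    refine dvd_trans ?_ h2
    rw [Nat.totient_prime_pow hp he]
    exact dvd_mul_right _ _
  · have h1 : (Finset.univ.filter (fun a : {y // P y} => zpowers (a : G) = b)) = ∅ := by
      rw [Finset.filter_eq_empty_iff]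
      intro a _ ha
      exact hb ⟨a, ha⟩
    rw [h1, Finset.sum_empty]
    exact dvd_zero _

end Cfsg.Agent.H3
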