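import Cfsg.Agent.H3.FrobSol

set_option autoImplicit false
set_option linter.unusedSectionVars false
set_option linter.unusedSimpArgs false
set_option linter.unusedVariables false
set_option linter.style.haveILetI false
open Subgroup

namespace Cfsg.Agent.H3

universe u

theorem dvd_of_not_ppow {p e s o : ℕ} (hp : p.Prime) (he : 0 < e) (hs : ¬ p ∣ s) (h1 : o ∣ p ^ e * s) (h2 : ¬ p ^ e ∣ o) :
    o ∣ p ^ (e - 1) * s := by
  have ho : o ≠ 0 := by
    rintro rfl
    exact h2 (dvd_zero _)
  obtain ⟨a, t, ht, hot⟩ := Nat.exists_eq_pow_mul_and_not_dvd ho p hp.one_lt.ne'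
  subst hot
  have hae : a < e := by
    by_contra hcon
    exact h2 (dvd_mul_of_dvd_left (pow_dvd_pow p (not_lt.1 hcon)) t)
  have hts : t ∣ s := by
    have h3 : t ∣ p ^ e * s := (dvd_mul_left t (p ^ a)).trans h1
    exact (((Nat.Prime.coprime_iff_not_dvd hp).2 ht).pow_left e).symm.dvd_of_dvd_mul_left h3
  exact mul_dvd_mul (pow_dvd_pow p (by omega)) hts

/-- decomposition of elements into `p`-part and `p'`-part -/
theorem card_decomp {G : Type u} [Group G] [Finite G] {p e s : ℕ} (hp : p.Prime) (he : 0 < e) (hs : ¬ p ∣ s) :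
    Nat.card {x : G // x ^ (p ^ e * s) = 1 ∧ x ^ (p ^ (e - 1) * s) ≠ 1} =
      Nat.card ((y : {y : G // orderOf y = p ^ e}) × {z : G // z * (y : G) = y * z ∧ z ^ s = 1}) := by
  have hcop : (p ^ e).Coprime s := ((Nat.Prime.coprime_iff_not_dvd hp).2 hs).pow_left e
  obtain ⟨u, v, huv⟩ : IsCoprime ((p ^ e : ℕ) : ℤ) (s : ℤ) := Nat.isCoprime_iff_coprime.2 hcop
  symm
  apply Nat.card_congr
  have key : ∀ y z : G, orderOf y = p ^ e → z * y = y * z → z ^ s = 1 → (y * z) ^ (v * (s : ℤ)) = y := by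
    intro y z hy hyz hz
    have hc : Commute y z := hyz.symm
    rw [hc.mul_zpow]
    have h1 : z ^ (v * (s : ℤ)) = 1 := by
      rw [mul_comm, zpow_mul, zpow_natCast, hz, one_zpow]
    have h2 : y ^ (v * (s : ℤ)) = y := by
      have h3 : y ^ (u * ((p ^ e : ℕ) : ℤ)) = 1 := by
        rw [mul_comm u, zpow_mul, zpow_natCast, ← hy, pow_orderOf_eq_one, one_zpow]
      calc y ^ (v * (s : ℤ)) = y ^ (u * ((p ^ e : ℕ) : ℤ)) * y ^ (v * (s : ℤ)) := by
            rw [h3, one_mul]
        _ = y ^ (u * ((p ^ e : ℕ) : ℤ) + v * (s : ℤ)) := (zpow_add _ _ _).symm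
        _ = y := by rw [huv, zpow_one]
    rw [h1, h2, mul_one]
  have hmem : ∀ y z : G, orderOf y = p ^ e → z * y = y * z → z ^ s = 1 →
      (y * z) ^ (p ^ e * s) = 1 ∧ (y * z) ^ (p ^ (e - 1) * s) ≠ 1 := by
    intro y z hy hyz hz
    have hc : Commute y z := hyz.symm
    constructor
    · rw [hc.mul_pow, pow_mul, ← hy, pow_orderOf_eq_one, one_pow, mul_comm, pow_mul z, hz, one_pow]
      rw [one_mul]
    · rw [hc.mul_pow, mul_comm (p ^ (e - 1)) s, pow_mul z, hz, one_pow, mul_one]
      intro h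
      have h1 : p ^ e ∣ s * p ^ (e - 1) := by rw [← hy]; exact orderOf_dvd_of_pow_eq_one h
      have h2 : p ^ e ∣ p ^ (e - 1) := hcop.dvd_of_dvd_mul_left h1
      have h3 := (Nat.pow_dvd_pow_iff_le_right hp.one_lt).1 h2
      omega
  apply Equiv.ofBijective (fun t : (y : {y : G // orderOf y = p ^ e}) × {z : G // z * (y : G) = y * z ∧ z ^ s = 1} =>
    (⟨(t.1 : G) * (t.2 : G), hmem _ _ t.1.2 t.2.2.1 t.2.2.2⟩ : {x : G // x ^ (p ^ e * s) = 1 ∧ x ^ (p ^ (e - 1) * s) ≠ 1}))
  constructor
  · rintro ⟨⟨y, hy⟩, ⟨z, hz1, hz2⟩⟩ ⟨⟨y', hy'⟩, ⟨z', hz1', hz2'⟩⟩ h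
    have h1 : y * z = y' * z' := congrArg Subtype.val h
    have h2 : y = y' := by
      rw [← key y z hy hz1 hz2, ← key y' z' hy' hz1' hz2', h1]
    subst h2
    have h3 : z = z' := mul_left_cancel h1
    subst h3
    rfl
  · rintro ⟨x, hx1, hx2⟩
    have h1 : x ^ (v * (s : ℤ)) * x ^ (u * ((p ^ e : ℕ) : ℤ)) = x := by
      rw [← zpow_add, add_comm, huv, zpow_one]
    have hz2 : (x ^ (u * ((p ^ e : ℕ) : ℤ))) ^ s = 1 := by
      rw [← zpow_natCast, ← zpow_mul]
      have : u * ((p ^ e : ℕ) : ℤ) * (s : ℤ) = ((p ^ e * s : ℕ) : ℤ) * u := by push_cast; ring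
      rw [this, zpow_mul, zpow_natCast, hx1, one_zpow]
    have hc : Commute (x ^ (v * (s : ℤ))) (x ^ (u * ((p ^ e : ℕ) : ℤ))) := (Commute.refl x).zpow_zpow _ _
    have hy1 : (x ^ (v * (s : ℤ))) ^ (p ^ e) = 1 := by
      rw [← zpow_natCast, ← zpow_mul]
      have : v * (s : ℤ) * ((p ^ e : ℕ) : ℤ) = ((p ^ e * s : ℕ) : ℤ) * v := by push_cast; ring
      rw [this, zpow_mul, zpow_natCast, hx1, one_zpow]
    have hy2 : ¬ (x ^ (v * (s : ℤ))) ^ (p ^ (e - 1)) = 1 := by
      intro h
      apply hx2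
      have h3 : (x ^ (v * (s : ℤ)) * x ^ (u * ((p ^ e : ℕ) : ℤ))) ^ (p ^ (e - 1) * s) = 1 := by
        rw [hc.mul_pow, pow_mul, h, one_pow, one_mul, mul_comm (p ^ (e - 1)) s, pow_mul, hz2, one_pow]
      rwa [h1] at h3
    have hyo : orderOf (x ^ (v * (s : ℤ))) = p ^ e := by
      haveI : Fact p.Prime := ⟨hp⟩
      obtain ⟨e', rfl⟩ : ∃ e', e = e' + 1 := ⟨e - 1, by omega⟩
      exact orderOf_eq_prime_pow hy2 hy1
    exact ⟨⟨⟨_, hyo⟩, ⟨_, hc.eq.symm, hz2⟩⟩, Subtype.ext h1⟩

theorem frob_step {G : Type u} [Group G] [Finite G]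
    (IH : ∀ (K : Type u) [Group K] [Finite K], Nat.card K < Nat.card G → ∀ n, n ∣ Nat.card K → n ∣ Nat.card {x : K // x ^ n = 1})
    {p n : ℕ} (hp : p.Prime) (hn : n * p ∣ Nat.card G) :
    n ∣ Nat.card {x : G // x ^ (n * p) = 1 ∧ x ^ n ≠ 1} := by
  classical
  have hG0 : 0 < Nat.card G := Nat.card_pos
  have hn0 : n ≠ 0 := by
    rintro rfl
    rw [zero_mul] at hn
    exact hG0.ne' (Nat.eq_zero_of_zero_dvd hn)
  obtain ⟨e, s, hs, hes⟩ := Nat.exists_eq_pow_mul_and_not_dvd (n := n * p) (Nat.mul_ne_zero hn0 hp.ne_zero) p hp.one_lt.ne'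
  have he : 0 < e := by
    rcases Nat.eq_zero_or_pos e with rfl | h
    · exfalso
      rw [pow_zero, one_mul] at hes
      exact hs (hes ▸ dvd_mul_left p n)
    · exact h
  have hns : n = p ^ (e - 1) * s := by
    have h1 : n * p = (p ^ (e - 1) * s) * p := by
      rw [hes]
      obtain ⟨e', rfl⟩ : ∃ e', e = e' + 1 := ⟨e - 1, by omega⟩
      rw [Nat.add_sub_cancel, pow_succ]; ring
    exact Nat.eq_of_mul_eq_mul_right hp.pos h1
  have hcop : (p ^ (e - 1)).Coprime s := ((Nat.Prime.coprime_iff_not_dvd hp).2 hs).pow_left _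
  have hcop' : (p ^ e).Coprime s := ((Nat.Prime.coprime_iff_not_dvd hp).2 hs).pow_left _
  have hsG : s ∣ Nat.card G := (Dvd.intro_left _ rfl : s ∣ p ^ e * s).trans (hes ▸ hn)
  rw [hes]
  have hPn : ∀ x : G, x ^ n ≠ 1 ↔ x ^ (p ^ (e - 1) * s) ≠ 1 := fun x => by rw [← hns]
  have hcongr : Nat.card {x : G // x ^ (p ^ e * s) = 1 ∧ x ^ n ≠ 1} = Nat.card {x : G // x ^ (p ^ e * s) = 1 ∧ x ^ (p ^ (e - 1) * s) ≠ 1} := by
    rw [← hns]
  rw [hcongr]
  nth_rewrite 1 [hns]
  apply hcop.mul_dvd_of_dvd_of_dvd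
  · -- generators
    apply gens_dvd hp he
    · intro x y hxy hx
      have ho : orderOf x = orderOf y := by rw [← Nat.card_zpowers, hxy, Nat.card_zpowers]
      rw [← orderOf_dvd_iff_pow_eq_one, Ne, ← orderOf_dvd_iff_pow_eq_one] at hx ⊢
      rwa [← ho]
    · intro x hx
      rw [← orderOf_dvd_iff_pow_eq_one, Ne, ← orderOf_dvd_iff_pow_eq_one] at hx
      by_contra hcon
      exact hx.2 (dvd_of_not_ppow hp he hs hx.1 hcon)
  · rw [card_decomp hp he hs]
    haveI : Fintype {y : G // orderOf y = p ^ e} := Fintype.ofFinite _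
    rw [Nat.card_sigma]
    apply class_dvd (fun y => orderOf y = p ^ e) (fun x y hxy hx => by
      obtain ⟨c, hc⟩ := isConj_iff.1 hxy
      rw [← hc, ← hx]
      exact (MulEquiv.orderOf_eq (MulAut.conj c) x)) (fun y => Nat.card {z : G // z * y = y * z ∧ z ^ s = 1})
    · intro x y hxy
      obtain ⟨c, rfl⟩ := isConj_iff.1 hxy
      apply Nat.card_congr
      refine ⟨fun z => ⟨c * z.1 * c⁻¹, ?_, ?_⟩, fun z => ⟨c⁻¹ * z.1 * c, ?_, ?_⟩, ?_, ?_⟩
      · have := z.2.1
        calc c * z.1 * c⁻¹ * (c * x * c⁻¹) = c * (z.1 * x) * c⁻¹ := by group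
          _ = c * (x * z.1) * c⁻¹ := by rw [this]
          _ = _ := by group
      · rw [conj_pow, z.2.2]; group
      · have := z.2.1
        calc c⁻¹ * z.1 * c * x = c⁻¹ * (z.1 * (c * x * c⁻¹)) * c := by group
          _ = c⁻¹ * ((c * x * c⁻¹) * z.1) * c := by rw [this]
          _ = _ := by group
      · have e1 : c⁻¹ * z.1 * c = c⁻¹ * z.1 * c⁻¹⁻¹ := by rw [inv_inv]
        rw [e1, conj_pow, z.2.2]; group
      · intro z; apply Subtype.ext; show c⁻¹ * (c * z.1 * c⁻¹) * c = z.1; group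
      · intro z; apply Subtype.ext; show c * (c⁻¹ * z.1 * c) * c⁻¹ = z.1; group
    · intro y hy
      set C := centralizer ({y} : Set G) with hC
      have hyC : y ∈ C := by rw [hC, mem_centralizer_singleton_iff]
      let y' : ↥C := ⟨y, hyC⟩
      have hy'c : y' ∈ center ↥C := by
        rw [mem_center_iff]
        intro c
        exact Subtype.ext (mem_centralizer_singleton_iff.1 c.2)
      haveI : (zpowers y').Normal := by
        refine ⟨fun z hz g => ?_⟩
        have hzc : z ∈ center ↥C := (zpowers_le.2 hy'c) hz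
        have : g * z * g⁻¹ = z := by rw [mem_center_iff.1 hzc g]; group
        rw [this]; exact hz
      have ho : orderOf y' = p ^ e := by rw [← hy]; exact Subgroup.orderOf_mk _ _
      have h1 : Nat.card {z : G // z * y = y * z ∧ z ^ s = 1} = Nat.card {z : ↥C // z ^ s = 1} := by
        apply Nat.card_congr
        refine ⟨fun z => ⟨⟨z.1, by rw [hC, mem_centralizer_singleton_iff]; exact z.2.1⟩, Subtype.ext z.2.2⟩,
          fun z => ⟨z.1.1, mem_centralizer_singleton_iff.1 z.1.2, congrArg Subtype.val z.2⟩, fun z => rfl, fun z => rfl⟩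
      have hcop2 : (orderOf y').Coprime s := by rw [ho]; exact hcop'
      rw [h1, card_sol_quot y' hy'c s hcop2, card_sol_gcd]
      have hK : Nat.card (↥C ⧸ zpowers y') * p ^ e = Nat.card ↥C := by
        rw [← ho, ← Nat.card_zpowers, ← Subgroup.index_eq_card, Subgroup.index_mul_card]
      have hlt : Nat.card (↥C ⧸ zpowers y') < Nat.card G := by
        have h2 : Nat.card ↥C ≤ Nat.card G := Subgroup.card_le_card_group C
        have h3 : 1 < p ^ e := Nat.one_lt_pow he.ne' hp.one_lt
        have h4 : 0 < Nat.card (↥C ⧸ zpowers y') := Nat.card_pos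
        nlinarith
      have h5 := IH (↥C ⧸ zpowers y') hlt (Nat.gcd s (Nat.card (↥C ⧸ zpowers y'))) (Nat.gcd_dvd_right _ _)
      refine dvd_trans ?_ (mul_dvd_mul_left _ h5)
      rw [← Nat.gcd_mul_left]
      apply Nat.dvd_gcd
      · exact dvd_mul_left s _
      · have h6 : s ∣ C.index * Nat.card (↥C ⧸ zpowers y') * p ^ e := by
          rw [mul_assoc, hK, Subgroup.index_mul_card]; exact hsG
        exact hcop'.symm.dvd_of_dvd_mul_right h6

theorem frob_aux (N : ℕ) : ∀ (G : Type u) [Group G] [Finite G], Nat.card G = N → ∀ n, n ∣ Nat.card G → n ∣ Nat.card {x : G // x ^ n = 1} := by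
  induction N using Nat.strong_induction_on with
  | _ N IHN =>
    intro G _ _ hGN
    have IH : ∀ (K : Type u) [Group K] [Finite K], Nat.card K < Nat.card G → ∀ n, n ∣ Nat.card K → n ∣ Nat.card {x : K // x ^ n = 1} := by
      intro K _ _ hK n hn
      exact IHN (Nat.card K) (hGN ▸ hK) K rfl n hn
    have key : ∀ d n : ℕ, n * d = Nat.card G → n ∣ Nat.card {x : G // x ^ n = 1} := by
      intro d
      induction d using Nat.strong_induction_on with
      | _ d IHd =>
        intro n hnd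
        by_cases hd1 : d = 1
        · rw [hd1, mul_one] at hnd
          have : Nat.card {x : G // x ^ n = 1} = Nat.card G := by
            apply Nat.card_congr
            refine ⟨fun x => x.1, fun x => ⟨x, by rw [hnd]; exact pow_card_eq_one'⟩, fun x => rfl, fun x => rfl⟩
          rw [this, hnd]
        · obtain ⟨p, hp, m, hm⟩ := Nat.exists_prime_and_dvd hd1
          have hd0 : d ≠ 0 := by
            rintro rfl
            rw [mul_zero] at hnd
            exact Nat.card_pos.ne' hnd.symm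
          have hm0 : m ≠ 0 := by rintro rfl; exact hd0 (by rw [hm, mul_zero])
          have hmd : m < d := by
            rw [hm]
            exact lt_mul_of_one_lt_left (Nat.pos_of_ne_zero hm0) hp.one_lt
          have h1 := IHd m hmd (n * p) (by rw [← hnd, hm]; ring)
          have h2 := frob_step IH hp (n := n) (by rw [← hnd, hm]; exact ⟨m, by ring⟩)
          have h3 : Nat.card {x : G // x ^ (n * p) = 1} = Nat.card {x : G // x ^ n = 1} + Nat.card {x : G // x ^ (n * p) = 1 ∧ x ^ n ≠ 1} := by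
            classical
            haveI : Fintype G := Fintype.ofFinite G
            rw [Nat.card_eq_fintype_card, Nat.card_eq_fintype_card, Nat.card_eq_fintype_card, Fintype.card_subtype, Fintype.card_subtype, Fintype.card_subtype]
            rw [← Finset.card_union_of_disjoint]
            · congr 1
              ext x
              simp only [Finset.mem_filter, Finset.mem_univ, true_and, Finset.mem_union]
              constructor
              · intro h
                by_cases hx : x ^ n = 1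
                · exact Or.inl hx
                · exact Or.inr ⟨h, hx⟩
              · rintro (h | h)
                · rw [pow_mul, h, one_pow]
                · exact h.1
            · rw [Finset.disjoint_left]
              intro x hx hx'
              simp only [Finset.mem_filter, Finset.mem_univ, true_and] at hx hx'
              exact hx'.2 hx
          rw [h3] at h1
          exact (Nat.dvd_add_left h2).1 ((dvd_mul_right n p).trans h1)
    intro n hn
    obtain ⟨d, hd⟩ := hn
    exact key d n hd.symm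

/-- **Frobenius' theorem** -/
theorem frob_sol {G : Type u} [Group G] [Finite G] (n : ℕ) (hn : n ∣ Nat.card G) : n ∣ Nat.card {x : G // x ^ n = 1} :=
  frob_aux _ G rfl n hn

end Cfsg.Agent.H3
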