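import Mathlib
import Cfsg.Prelude
import Cfsg.Agent.L0.Coprime
import Cfsg.Agent.H1.Basic
import Cfsg.Agent.H1.Hall
import Cfsg.Agent.H3.PiClosed

set_option autoImplicit false
set_option linter.all false
open Cfsg
open Subgroup
open scoped Pointwise

namespace Cfsg.Agent.H3
universe u

theorem pihall_iff {X : Type*} [Group X] [Finite X] {π : Set ℕ} {H G : Subgroup X} {a b : ℕ} (hab : Nat.card G = a * b)
    (ha : ∀ q : ℕ, q.Prime → q ∣ a → q ∈ π) (hb : ∀ q : ℕ, q.Prime → q ∣ b → q ∉ π) :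
    IsPiHallOf π H G ↔ H ≤ G ∧ Nat.card H = a := by
  have hG0 : Nat.card G ≠ 0 := Nat.card_pos.ne'
  have ha0 : a ≠ 0 := by rintro rfl; rw [zero_mul] at hab; exact hG0 hab
  have hrel : ∀ {H : Subgroup X}, H ≤ G → Nat.card H * H.relIndex G = a * b := by
    intro H hH
    have := Subgroup.card_mul_index (H.subgroupOf G)
    rw [L0.card_subgroupOf_of_le hH, hab] at this
    exact this
  constructor
  · rintro ⟨hHG, h1, h2⟩
    refine ⟨hHG, ?_⟩
    have h3 := hrel hHG
    apply Nat.dvd_antisymm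
    · exact (coprime_of_pi h1 hb).dvd_of_dvd_mul_right (Dvd.intro _ h3)
    · have h4 : a.Coprime (H.relIndex G) := coprime_of_pi ha (fun q hq hd hqπ => h2 q hq hqπ hd)
      exact h4.dvd_of_dvd_mul_right (Dvd.intro _ h3.symm)
  · rintro ⟨hHG, h1⟩
    have h3 := hrel hHG
    rw [h1] at h3
    have h4 : H.relIndex G = b := Nat.eq_of_mul_eq_mul_left (Nat.pos_of_ne_zero ha0) h3
    refine ⟨hHG, by rw [h1]; exact ha, ?_⟩
    intro p hp hpπ hd
    rw [h4] at hd
    exact hb p hp hd hpπ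

theorem pihall_conj {X : Type*} [Group X] [Finite X] {π : Set ℕ} {H G : Subgroup X} (h : IsPiHallOf π H G) {g : X}
    (hg : MulAut.conj g • G = G) : IsPiHallOf π (MulAut.conj g • H) G := by
  obtain ⟨a, b, hab, ha, hb⟩ := pi_split π (Nat.card G) Nat.card_pos.ne'
  rw [pihall_iff hab ha hb] at h ⊢
  refine ⟨?_, by rw [L0.card_conj_smul]; exact h.2⟩
  rw [← hg]
  exact Subgroup.pointwise_smul_le_pointwise_smul_iff.mpr h.1

theorem pihall_exists {X : Type*} [Group X] [Finite X] (π : Set ℕ) {G : Subgroup X} (hs : Group.IsSolvable G) :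
    ∃ H : Subgroup X, IsPiHallOf π H G := by
  obtain ⟨a, b, hab, ha, hb⟩ := pi_split π (Nat.card G) Nat.card_pos.ne'
  obtain ⟨H, hH⟩ := H1.hall_exists hs hab (coprime_of_pi ha hb)
  refine ⟨H.map G.subtype, ?_⟩
  rw [pihall_iff hab ha hb]
  exact ⟨Subgroup.map_subtype_le _, by rw [L0.card_map_subtype]; exact hH⟩

theorem pihall_trans {X : Type*} [Group X] [Finite X] {π : Set ℕ} {G H K : Subgroup X} (hs : Group.IsSolvable G)
    (hH : IsPiHallOf π H G) (hK : IsPiHallOf π K G) : ∃ g ∈ G, MulAut.conj g • H = K := by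
  obtain ⟨a, b, hab, ha, hb⟩ := pi_split π (Nat.card G) Nat.card_pos.ne'
  rw [pihall_iff hab ha hb] at hH hK
  obtain ⟨g, hg⟩ := H1.hall_conj hs hab (coprime_of_pi ha hb) (H := H.subgroupOf G) (K := K.subgroupOf G)
    (by rw [L0.card_subgroupOf_of_le hH.1]; exact hH.2) (by rw [L0.card_subgroupOf_of_le hK.1]; exact hK.2)
  refine ⟨g, g.2, ?_⟩
  apply Subgroup.eq_of_le_of_card_ge
  · rintro _ ⟨h, hh, rfl⟩
    have h1 : g * ⟨h, hH.1 hh⟩ * g⁻¹ ∈ K.subgroupOf G := by
      rw [← hg]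
      exact ⟨⟨h, hH.1 hh⟩, hh, rfl⟩
    exact h1
  · rw [L0.card_conj_smul, hH.2, hK.2]

theorem inv_hall_exists {X : Type*} [Group X] [Finite X] (π : Set ℕ) {A N : Subgroup X} (hAN : A ≤ normalizer (N : Set X))
    (hcop : (Nat.card A).Coprime (Nat.card N)) (hs : Group.IsSolvable N) :
    ∃ P, IsPiHallOf π P N ∧ A ≤ normalizer (P : Set X) := by
  letI := L0.conjActionSubgroup X
  obtain ⟨P, hP, hPA⟩ := L0.glauberman_exists (X := Subgroup X) hAN hcop (Or.inr hs) {P | IsPiHallOf π P N} (pihall_exists π hs)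
    (fun a ha P hP => pihall_conj hP (L0.mem_normalizer_conj.mp (hAN ha)))
    (fun n hn P hP => pihall_conj hP (L0.mem_normalizer_conj.mp (Subgroup.le_normalizer hn)))
    (fun P hP Q hQ => pihall_trans hs hP hQ)
  exact ⟨P, hP, fun a ha => L0.mem_normalizer_conj.mpr (hPA a ha)⟩

theorem inv_hall_conj {X : Type*} [Group X] [Finite X] {π : Set ℕ} {A N P Q : Subgroup X} (hAN : A ≤ normalizer (N : Set X))
    (hcop : (Nat.card A).Coprime (Nat.card N)) (hs : Group.IsSolvable N)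
    (hP : IsPiHallOf π P N) (hPA : A ≤ normalizer (P : Set X))
    (hQ : IsPiHallOf π Q N) (hQA : A ≤ normalizer (Q : Set X)) :
    ∃ c ∈ N ⊓ centralizer (A : Set X), MulAut.conj c • P = Q := by
  letI := L0.conjActionSubgroup X
  obtain ⟨n, hn, hnP⟩ := pihall_trans hs hP hQ
  exact L0.glauberman_transitive (X := Subgroup X) hAN hcop (Or.inr hs) (ω := P) (ω' := Q) hn hnP
    (fun a ha => L0.mem_normalizer_conj.mp (hPA ha)) (fun a ha => L0.mem_normalizer_conj.mp (hQA ha))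

theorem inv_hall_ge_aux (π : Set ℕ) (n : ℕ) : ∀ (Y : Type u) [Group Y] [Finite Y] (A G U : Subgroup Y), Nat.card G = n → G.Normal →
    (Nat.card A).Coprime (Nat.card G) → Group.IsSolvable G → U ≤ G → A ≤ normalizer (U : Set Y) →
    (∀ p : ℕ, p.Prime → p ∣ Nat.card U → p ∈ π) →
    ∃ H : Subgroup Y, IsPiHallOf π H G ∧ A ≤ normalizer (H : Set Y) ∧ U ≤ H := by
  induction n using Nat.strong_induction_on with
  | _ n ih =>
  intro Y _ _ A G U hn hG hcop hs hUG hAU hUπ
  obtain ⟨a, b, hab, ha, hb⟩ := pi_split π (Nat.card G) Nat.card_pos.ne'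
  have hAG : A ≤ normalizer (G : Set Y) := by rw [Subgroup.normalizer_eq_top (H := G)]; exact le_top
  by_cases hGb : G = ⊥
  · have hUb : U = ⊥ := le_bot_iff.1 (hGb ▸ hUG)
    obtain ⟨H, hH, hHA⟩ := inv_hall_exists π hAG hcop hs
    exact ⟨H, hH, hHA, by rw [hUb]; exact bot_le⟩
  obtain ⟨M, hM, hMG, hMb, hmin⟩ := H1.exists_minimal_normal_le G hGb
  have hMs : Group.IsSolvable M := L0.isSolvable_subgroup_of_le hMG hs
  haveI hMc : IsMulCommutative M := H1.isMulCommutative_of_minimal_of_solvable M hMb hmin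
  obtain ⟨p, hp, hMp⟩ := H1.exists_prime_pow_eq_one_of_minimal M hMb hmin
  haveI : Fact p.Prime := ⟨hp⟩
  have hMpg : IsPGroup p M := H1.isPGroup_of_pow_eq_one M hMp
  have hAM : A ≤ normalizer (M : Set Y) := by rw [Subgroup.normalizer_eq_top (H := M)]; exact le_top
  -- the quotient
  have hker : G ⊓ (QuotientGroup.mk' M).ker = M := by rw [QuotientGroup.ker_mk']; exact inf_eq_right.2 hMG
  have hcm : ∀ K : Subgroup Y, M ≤ K → Nat.card K = Nat.card M * Nat.card (K.map (QuotientGroup.mk' M)) := by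
    intro K hK
    have h5 := Subgroup.relIndex_ker K (QuotientGroup.mk' M)
    rw [QuotientGroup.ker_mk'] at h5
    have h6 := Subgroup.relIndex_mul_relIndex ⊥ M K bot_le hK
    rw [Subgroup.relIndex_bot_left, Subgroup.relIndex_bot_left, h5] at h6
    exact h6.symm
  have hM1 : 1 < Nat.card M := (Subgroup.one_lt_card_iff_ne_bot M).2 hMb
  have hlt : Nat.card (G.map (QuotientGroup.mk' M)) < n := by
    rw [← hn, hcm G hMG]
    exact lt_mul_of_one_lt_left Nat.card_pos hM1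
  have hsq : Group.IsSolvable (G.map (QuotientGroup.mk' M)) :=
    Group.isSolvable_of_surjective (f := (QuotientGroup.mk' M).subgroupMap G) ((QuotientGroup.mk' M).subgroupMap_surjective G)
  obtain ⟨Hb, hHb, hHbA, hUHb⟩ := ih _ hlt (Y ⧸ M) (A.map (QuotientGroup.mk' M)) (G.map (QuotientGroup.mk' M)) (U.map (QuotientGroup.mk' M)) rfl
    (hG.map _ (QuotientGroup.mk'_surjective M))
    (Nat.Coprime.coprime_dvd_left (Subgroup.card_map_dvd A _) (Nat.Coprime.coprime_dvd_right (Subgroup.card_map_dvd G _) hcop))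
    hsq (Subgroup.map_mono hUG) ((Subgroup.map_mono hAU).trans (Subgroup.le_normalizer_map _))
    (fun q hq hd => hUπ q hq (hd.trans (Subgroup.card_map_dvd U _)))
  set H₁ := Hb.comap (QuotientGroup.mk' M) with hH₁
  have hMH₁ : M ≤ H₁ := by
    intro y hy
    rw [hH₁, mem_comap, (QuotientGroup.mk'_apply M y), (QuotientGroup.eq_one_iff y).2 hy]; exact one_mem _
  have hmapH₁ : H₁.map (QuotientGroup.mk' M) = Hb := Subgroup.map_comap_eq_self_of_surjective (QuotientGroup.mk'_surjective M) Hb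
  have hH₁G : H₁ ≤ G := by
    intro y hy
    have h1 : QuotientGroup.mk' M y ∈ G.map (QuotientGroup.mk' M) := hHb.1 hy
    obtain ⟨g, hg, hgy⟩ := h1
    have h2 : g⁻¹ * y ∈ M := QuotientGroup.eq.1 hgy
    have h3 : y = g * (g⁻¹ * y) := by group
    rw [h3]; exact mul_mem hg (hMG h2)
  have hUH₁ : U ≤ H₁ := Subgroup.map_le_iff_le_comap.1 hUHb
  have hAH₁ : A ≤ normalizer (H₁ : Set Y) := by
    rw [Subgroup.le_normalizer_iff]
    intro x hx y hy
    rw [hH₁, mem_comap] at hy ⊢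
    rw [map_mul, map_mul, map_inv]
    exact (mem_normalizer_iff.1 (hHbA (mem_map_of_mem _ hx)) _).1 hy
  have hcH₁ : Nat.card H₁ = Nat.card M * Nat.card Hb := by rw [hcm H₁ hMH₁, hmapH₁]
  -- the index of H₁ in G is prime to π
  have hidx : ∀ q : ℕ, q.Prime → q ∈ π → ¬ q ∣ H₁.relIndex G := by
    intro q hq hqπ hd
    have h1 : H₁.relIndex G = Hb.relIndex (G.map (QuotientGroup.mk' M)) := by
      rw [hH₁]
      exact Subgroup.relIndex_comap Hb (QuotientGroup.mk' M) G
    rw [h1] at hd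
    exact hHb.2.2 q hq hqπ hd
  obtain ⟨k, hk⟩ := IsPGroup.iff_card.mp hMpg
  by_cases hpπ : p ∈ π
  · refine ⟨H₁, ⟨hH₁G, ?_, hidx⟩, hAH₁, hUH₁⟩
    intro q hq hd
    rw [hcH₁] at hd
    rcases hq.dvd_mul.1 hd with h | h
    · rw [hk] at h
      rw [(Nat.prime_dvd_prime_iff_eq hq hp).1 (hq.dvd_of_dvd_pow h)]; exact hpπ
    · exact hHb.2.1 q hq h
  · -- M is a π'-group
    have hMπ : ∀ q : ℕ, q.Prime → q ∣ Nat.card M → q ∉ π := by
      intro q hq h
      rw [hk] at h
      rw [(Nat.prime_dvd_prime_iff_eq hq hp).1 (hq.dvd_of_dvd_pow h)]; exact hpπ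
    have hcop₁ : (Nat.card A).Coprime (Nat.card H₁) := Nat.Coprime.coprime_dvd_right (Subgroup.card_dvd_of_le hH₁G) hcop
    have hs₁ : Group.IsSolvable H₁ := L0.isSolvable_subgroup_of_le hH₁G hs
    obtain ⟨H, hH, hHA⟩ := inv_hall_exists π hAH₁ hcop₁ hs₁
    have hcardH : Nat.card H = Nat.card Hb := ((pihall_iff (a := Nat.card Hb) (b := Nat.card M) (by rw [hcH₁, mul_comm]) hHb.2.1 hMπ).1 hH).2
    -- W = M ⊔ U
    set W := M ⊔ U with hW
    have hWH₁ : W ≤ H₁ := sup_le hMH₁ hUH₁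
    have hMU : M ⊓ U = ⊥ := Subgroup.inf_eq_bot_of_coprime (coprime_of_pi hUπ hMπ).symm
    have hWc : Nat.card W = Nat.card U * Nat.card M := by rw [hW, H1.card_sup_of_inf_bot_normal hMU, mul_comm]
    have hAW : A ≤ normalizer (W : Set Y) := by
      intro x hx
      have h1 := L0.mem_normalizer_conj.1 (hAM hx)
      have h2 := L0.mem_normalizer_conj.1 (hAU hx)
      apply L0.mem_normalizer_conj.2
      rw [hW, Subgroup.smul_sup, h1, h2]
    have hMH : M ⊓ H = ⊥ := Subgroup.inf_eq_bot_of_coprime (coprime_of_pi hH.2.1 hMπ).symm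
    have hMHs : M ⊔ H = H₁ := by
      apply Subgroup.eq_of_le_of_card_ge (sup_le hMH₁ hH.1)
      rw [H1.card_sup_of_inf_bot_normal hMH, hcH₁, hcardH]
    set K := W ⊓ H with hK
    have hMKW : M ⊔ K = W := by
      apply le_antisymm (sup_le le_sup_left inf_le_left)
      intro w hw
      have h1 : w ∈ M ⊔ H := by rw [hMHs]; exact hWH₁ hw
      rw [mem_sup_of_normal_left] at h1
      obtain ⟨m, hm, h, hh, hmh⟩ := h1
      have h2 : h ∈ W := by
        have : h = m⁻¹ * w := by rw [← hmh]; group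
        rw [this]; exact mul_mem (inv_mem ((le_sup_left : M ≤ W) hm)) hw
      rw [← hmh]
      exact mul_mem (mem_sup_left hm) (mem_sup_right ⟨h2, hh⟩)
    have hMK : M ⊓ K = ⊥ := le_bot_iff.1 (hMH ▸ inf_le_inf_left M inf_le_right)
    have hKc : Nat.card K = Nat.card U := by
      have h1 := H1.card_sup_of_inf_bot_normal hMK
      rw [hMKW, hWc, mul_comm] at h1
      exact (Nat.eq_of_mul_eq_mul_left Nat.card_pos h1).symm
    have hAK : A ≤ normalizer (K : Set Y) := by
      intro x hx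
      have h1 := L0.mem_normalizer_conj.1 (hAW hx)
      have h2 := L0.mem_normalizer_conj.1 (hHA hx)
      apply L0.mem_normalizer_conj.2
      rw [hK, Subgroup.smul_inf, h1, h2]
    have hKH : IsPiHallOf π K W := (pihall_iff hWc hUπ hMπ).2 ⟨inf_le_left, hKc⟩
    have hUH : IsPiHallOf π U W := (pihall_iff hWc hUπ hMπ).2 ⟨le_sup_right, rfl⟩
    obtain ⟨c, hc, hcK⟩ := inv_hall_conj hAW (Nat.Coprime.coprime_dvd_right (Subgroup.card_dvd_of_le (hWH₁.trans hH₁G)) hcop)
      (L0.isSolvable_subgroup_of_le (hWH₁.trans hH₁G) hs) hKH hAK hUH hAU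
    refine ⟨MulAut.conj c • H, ⟨?_, ?_, ?_⟩, ?_, ?_⟩
    · have h1 : MulAut.conj c • H₁ = H₁ := L0.mem_normalizer_conj.1 (le_normalizer (hWH₁ hc.1))
      refine le_trans ?_ hH₁G
      rw [← h1]
      exact Subgroup.pointwise_smul_le_pointwise_smul_iff.mpr hH.1
    · intro q hq hd
      rw [L0.card_conj_smul] at hd
      exact hH.2.1 q hq hd
    · intro q hq hqπ hd
      have h1 : MulAut.conj c • H₁ = H₁ := L0.mem_normalizer_conj.1 (le_normalizer (hWH₁ hc.1))
      have hle : MulAut.conj c • H ≤ H₁ := by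
        rw [← h1]
        exact Subgroup.pointwise_smul_le_pointwise_smul_iff.mpr hH.1
      have h3 := (pihall_conj hH h1).2.2 q hq hqπ
      have h4 := Subgroup.relIndex_mul_relIndex _ _ _ hle hH₁G
      rw [← h4] at hd
      rcases hq.dvd_mul.1 hd with h | h
      · exact h3 h
      · exact hidx q hq hqπ h
    · intro x hx
      apply L0.mem_normalizer_conj.2
      have h1 := L0.mem_normalizer_conj.1 (hHA hx)
      have h2 : x * c = c * x := (mem_centralizer_iff.1 hc.2) x hx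
      rw [← mul_smul, ← map_mul, h2, map_mul, mul_smul, h1]
    · rw [← hcK]
      exact Subgroup.pointwise_smul_le_pointwise_smul_iff.mpr inf_le_right

theorem inv_hall_ge {X : Type u} [Group X] [Finite X] {π : Set ℕ} {A G U : Subgroup X} (hAG : A ≤ normalizer (G : Set X))
    (hcop : (Nat.card A).Coprime (Nat.card G)) (hs : Group.IsSolvable G) (hUG : U ≤ G) (hAU : A ≤ normalizer (U : Set X))
    (hUπ : ∀ p : ℕ, p.Prime → p ∣ Nat.card U → p ∈ π) :
    ∃ H : Subgroup X, IsPiHallOf π H G ∧ A ≤ normalizer (H : Set X) ∧ U ≤ H := by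
  obtain ⟨a, b, hab, ha, hb⟩ := pi_split π (Nat.card G) Nat.card_pos.ne'
  set Y := G ⊔ A with hY
  have hGY : G ≤ Y := le_sup_left
  have hAY : A ≤ Y := le_sup_right
  have hGn : (G.subgroupOf Y).Normal := L0.subgroupOf_sup_normal hAG
  have hs' : Group.IsSolvable (G.subgroupOf Y) := by
    have := Group.isSolvable_of_surjective (f := (Subgroup.subgroupOfEquivOfLe hGY).symm.toMonoidHom) (Subgroup.subgroupOfEquivOfLe hGY).symm.surjective
    exact this
  obtain ⟨H, hH, hHA, hUH⟩ := inv_hall_ge_aux π _ Y (A.subgroupOf Y) (G.subgroupOf Y) (U.subgroupOf Y) rfl hGn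
    (by rw [L0.card_subgroupOf_of_le hGY, L0.card_subgroupOf_of_le hAY]; exact hcop) hs' (Subgroup.comap_mono hUG)
    (by
      intro x hx
      apply H1.mem_normalizer_of_conj_mem
      intro y hy
      exact (mem_normalizer_iff.1 (hAU hx) _).1 hy)
    (by rw [L0.card_subgroupOf_of_le (hUG.trans hGY)]; exact hUπ)
  rw [pihall_iff (a := a) (b := b) (by rw [L0.card_subgroupOf_of_le hGY]; exact hab) ha hb] at hH
  refine ⟨H.map Y.subtype, ?_, ?_, ?_⟩
  · rw [pihall_iff hab ha hb]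
    refine ⟨?_, by rw [L0.card_map_subtype]; exact hH.2⟩
    rintro _ ⟨x, hx, rfl⟩
    exact hH.1 hx
  · intro x hx
    apply H1.mem_normalizer_of_conj_mem
    rintro _ ⟨y, hy, rfl⟩
    have h1 : (⟨x, hAY hx⟩ : Y) ∈ normalizer (H : Set Y) := hHA hx
    exact ⟨_, (mem_normalizer_iff.1 h1 y).1 hy, rfl⟩
  · intro x hx
    exact ⟨⟨x, hGY (hUG hx)⟩, hUH hx, rfl⟩

end Cfsg.Agent.H3
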