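import Mathlib
import Cfsg.Prelude
import Cfsg.Agent.L0.Coprime
import Cfsg.Agent.H1.Basic
import Cfsg.Agent.H1.Hall
import Cfsg.Agent.H3.HallAct

set_option autoImplicit false
set_option linter.all false
open Cfsg
open Subgroup
open scoped commutatorElement

namespace Cfsg.Agent.H3
universe u

/-- a Frobenius group `M U` acting on an abelian group with no fixed points of `M` and of `U` -/
theorem frob_fix {X V : Type*} [Group X] [Finite X] [Group V] (hab : ∀ a b : V, a * b = b * a) (φ : X →* MulAut V) (M U : Subgroup X)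
    (hMU : ∀ u ∈ U, ∀ m ∈ M, u⁻¹ * m * u ∈ M) (hfix : ∀ u ∈ U, u ≠ 1 → ∀ m ∈ M, u * m = m * u → m = 1)
    (hM : ∀ v : V, (∀ m ∈ M, φ m v = v) → v = 1) (hU : ∀ v : V, (∀ u ∈ U, φ u v = v) → v = 1) (v : V) :
    v ^ (Nat.card M) = 1 := by
  classical
  letI : CommGroup V := { ‹Group V› with mul_comm := hab }
  haveI : Fintype M := Fintype.ofFinite M
  haveI : Fintype U := Fintype.ofFinite U
  have hNM : ∀ w : V, ∏ m : M, φ m w = 1 := by
    intro w
    apply hM
    intro m hm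
    rw [map_prod]
    have h1 : ∀ x : M, φ m (φ x w) = φ ((⟨m, hm⟩ * x : M) : X) w := by
      intro x
      rw [Subgroup.coe_mul, map_mul]; rfl
    rw [Finset.prod_congr rfl (fun x _ => h1 x)]
    exact (Fintype.prod_equiv (Equiv.mulLeft (⟨m, hm⟩ : M)) _ _ (fun x => rfl))
  have hNU : ∀ w : V, ∏ u : U, φ u w = 1 := by
    intro w
    apply hU
    intro m hm
    rw [map_prod]
    have h1 : ∀ x : U, φ m (φ x w) = φ ((⟨m, hm⟩ * x : U) : X) w := by
      intro x
      rw [Subgroup.coe_mul, map_mul]; rfl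
    rw [Finset.prod_congr rfl (fun x _ => h1 x)]
    exact (Fintype.prod_equiv (Equiv.mulLeft (⟨m, hm⟩ : U)) _ _ (fun x => rfl))
  have h1 : ∀ u : U, (u : X) ≠ 1 → ∏ m : M, φ ((m : X)⁻¹ * u * m) v = 1 := by
    intro u hu
    let c : M → M := fun m => ⟨(u : X)⁻¹ * (m : X)⁻¹ * u * m, mul_mem (hMU u u.2 _ (inv_mem m.2)) m.2⟩
    have hc : Function.Injective c := by
      intro m n hmn
      have h2 : (u : X)⁻¹ * (m : X)⁻¹ * u * m = (u : X)⁻¹ * (n : X)⁻¹ * u * n := congrArg Subtype.val hmn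
      have h3 : (n : X) * (m : X)⁻¹ = 1 := by
        apply hfix u u.2 hu _ (mul_mem n.2 (inv_mem m.2))
        have h4 : (m : X)⁻¹ * u * m = (n : X)⁻¹ * u * n := by
          calc (m : X)⁻¹ * u * m = u * ((u : X)⁻¹ * (m : X)⁻¹ * u * m) := by group
            _ = u * ((u : X)⁻¹ * (n : X)⁻¹ * u * n) := by rw [h2]
            _ = (n : X)⁻¹ * u * n := by group
        calc (u : X) * (n * (m : X)⁻¹) = n * ((n : X)⁻¹ * u * n) * (m : X)⁻¹ := by group
          _ = n * ((m : X)⁻¹ * u * m) * (m : X)⁻¹ := by rw [h4]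
          _ = n * (m : X)⁻¹ * u := by group
      apply Subtype.ext
      exact (mul_inv_eq_one.1 h3).symm
    have hcb := Finite.injective_iff_bijective.1 hc
    have h2 : ∀ m : M, φ ((m : X)⁻¹ * u * m) v = φ u (φ (c m) v) := by
      intro m
      have e : (m : X)⁻¹ * u * m = u * (c m : X) := by
        show _ = (u : X) * ((u : X)⁻¹ * (m : X)⁻¹ * u * m)
        group
      rw [e, map_mul]; rfl
    rw [Finset.prod_congr rfl (fun x _ => h2 x), ← map_prod]
    have h3 : ∏ m : M, φ (c m) v = ∏ m : M, φ m v := Fintype.prod_equiv (Equiv.ofBijective c hcb) _ _ (fun x => rfl)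
    rw [h3, hNM, map_one]
  have h2 : ∏ u : U, ∏ m : M, φ ((m : X)⁻¹ * u * m) v = 1 := by
    rw [Finset.prod_comm]
    apply Finset.prod_eq_one
    intro m _
    have h3 : ∀ u : U, φ ((m : X)⁻¹ * u * m) v = φ (m : X)⁻¹ (φ u (φ m v)) := by
      intro u
      rw [map_mul, map_mul]; rfl
    rw [Finset.prod_congr rfl (fun x _ => h3 x), ← map_prod, hNU, map_one]
  rw [Finset.prod_eq_single (1 : U) (fun u _ hu => h1 u (fun h => hu (Subtype.ext h))) (fun h => absurd (Finset.mem_univ _) h)] at h2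
  have h3 : ∀ m : M, φ ((m : X)⁻¹ * ((1 : U) : X) * m) v = v := by
    intro m
    have e : (m : X)⁻¹ * ((1 : U) : X) * m = 1 := by rw [Subgroup.coe_one]; group
    rw [e, map_one]; rfl
  rw [Finset.prod_congr rfl (fun x _ => h3 x), Finset.prod_const, Finset.card_univ, ← Nat.card_eq_fintype_card] at h2
  exact h2

theorem adj {G : Type*} [Group G] [Finite G] {s t : ℕ} (hs : s.Prime) (ht : t.Prime) (hst : s ≠ t) (h : ∀ g : G, orderOf g ≠ s * t)
    {x y : G} {i j : ℕ} (hx : orderOf x = s ^ i) (hy : orderOf y = t ^ j) (hxy : x * y = y * x) : x = 1 ∨ y = 1 := by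
  by_contra hcon
  push Not at hcon
  obtain ⟨hx1, hy1⟩ := hcon
  have hi : i ≠ 0 := by rintro rfl; rw [pow_zero, orderOf_eq_one_iff] at hx; exact hx1 hx
  have hj : j ≠ 0 := by rintro rfl; rw [pow_zero, orderOf_eq_one_iff] at hy; exact hy1 hy
  obtain ⟨i, rfl⟩ := Nat.exists_eq_succ_of_ne_zero hi
  obtain ⟨j, rfl⟩ := Nat.exists_eq_succ_of_ne_zero hj
  have h1 : orderOf (x ^ s ^ i) = s := by
    rw [orderOf_pow_of_dvd (pow_pos hs.pos _).ne' (by rw [hx]; exact pow_dvd_pow _ (Nat.le_succ i)), hx, Nat.pow_div (Nat.le_succ i) hs.pos]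
    simp
  have h2 : orderOf (y ^ t ^ j) = t := by
    rw [orderOf_pow_of_dvd (pow_pos ht.pos _).ne' (by rw [hy]; exact pow_dvd_pow _ (Nat.le_succ j)), hy, Nat.pow_div (Nat.le_succ j) ht.pos]
    simp
  have hc : Commute (x ^ s ^ i) (y ^ t ^ j) := (Commute.pow_pow (hxy : Commute x y) _ _)
  apply h (x ^ s ^ i * y ^ t ^ j)
  rw [hc.orderOf_mul_eq_mul_orderOf_of_coprime (by rw [h1, h2]; exact (Nat.coprime_primes hs ht).2 hst), h1, h2]

theorem higman_core {K : Type u} [Group K] [Finite K] {s t u' : ℕ} [hs : Fact s.Prime] [ht : Fact t.Prime] [hu : Fact u'.Prime]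
    (hst : s ≠ t) (hsu : s ≠ u') (htu : t ≠ u') (h1 : ∀ g : K, orderOf g ≠ s * t) (h2 : ∀ g : K, orderOf g ≠ u' * s) (h3 : ∀ g : K, orderOf g ≠ u' * t)
    (N : Subgroup K) [N.Normal] (hN : IsPGroup t N) (hNc : ∀ a ∈ N, ∀ b ∈ N, a * b = b * a) (hNb : N ≠ ⊥) (H : Subgroup K) (M U : Subgroup H) [hMn : M.Normal]
    (hM : IsPGroup s M) (hMb : M ≠ ⊥) (hU : IsPGroup u' U) (hUb : U ≠ ⊥) : False := by
  obtain ⟨⟨m0, hm0⟩, hm1⟩ := Subgroup.ne_bot_iff_exists_ne_one.1 hMb
  obtain ⟨⟨u0, hu0⟩, hu1⟩ := Subgroup.ne_bot_iff_exists_ne_one.1 hUb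
  have oM : ∀ m ∈ M, ∃ i, orderOf ((m : H) : K) = s ^ i := by
    intro m hm
    obtain ⟨i, hi⟩ := (IsPGroup.iff_orderOf.mp hM) ⟨m, hm⟩
    rw [Subgroup.orderOf_mk] at hi
    exact ⟨i, by rw [Subgroup.orderOf_coe]; exact hi⟩
  have oU : ∀ m ∈ U, ∃ i, orderOf ((m : H) : K) = u' ^ i := by
    intro m hm
    obtain ⟨i, hi⟩ := (IsPGroup.iff_orderOf.mp hU) ⟨m, hm⟩
    rw [Subgroup.orderOf_mk] at hi
    exact ⟨i, by rw [Subgroup.orderOf_coe]; exact hi⟩
  have oN : ∀ n ∈ N, ∃ i, orderOf (n : K) = t ^ i := by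
    intro n hn
    obtain ⟨i, hi⟩ := (IsPGroup.iff_orderOf.mp hN) ⟨n, hn⟩
    exact ⟨i, by rw [← hi, Subgroup.orderOf_mk]⟩
  have key := frob_fix (X := H) (V := N) (fun a b => Subtype.ext (hNc a a.2 b b.2)) ((MulAut.conjNormal (H := N)).comp H.subtype) M U
    (fun x hx m hm => by
      have := hMn.conj_mem m hm x⁻¹
      rwa [inv_inv] at this)
    (fun x hx hx1 m hm hxm => by
      obtain ⟨i, hi⟩ := oU x hx
      obtain ⟨j, hj⟩ := oM m hm
      rcases adj hu.out hs.out (Ne.symm hsu) h2 hi hj (congrArg Subtype.val hxm) with h | h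
      · exact absurd (Subtype.ext h) hx1
      · exact Subtype.ext h)
    (fun v hv => by
      obtain ⟨i, hi⟩ := oM m0 hm0
      obtain ⟨j, hj⟩ := oN v v.2
      have h4 := hv m0 hm0
      have h5 : (m0 : K) * v * (m0 : K)⁻¹ = v := congrArg Subtype.val h4
      have h6 : (m0 : K) * v = v * (m0 : K) := by
        calc (m0 : K) * v = ((m0 : K) * v * (m0 : K)⁻¹) * m0 := by group
          _ = v * m0 := by rw [h5]
      rcases adj hs.out ht.out hst h1 hi hj h6 with h | h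
      · exact absurd (Subtype.ext (Subtype.ext h)) hm1
      · exact Subtype.ext h)
    (fun v hv => by
      obtain ⟨i, hi⟩ := oU u0 hu0
      obtain ⟨j, hj⟩ := oN v v.2
      have h4 := hv u0 hu0
      have h5 : (u0 : K) * v * (u0 : K)⁻¹ = v := congrArg Subtype.val h4
      have h6 : (u0 : K) * v = v * (u0 : K) := by
        calc (u0 : K) * v = ((u0 : K) * v * (u0 : K)⁻¹) * u0 := by group
          _ = v * u0 := by rw [h5]
      rcases adj hu.out ht.out (Ne.symm htu) h3 hi hj h6 with h | h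
      · exact absurd (Subtype.ext (Subtype.ext h)) hu1
      · exact Subtype.ext h)
  apply hNb
  rw [eq_bot_iff]
  intro n hn
  have h4 : n ^ Nat.card M = 1 := congrArg Subtype.val (key ⟨n, hn⟩)
  obtain ⟨j, hj⟩ := oN n hn
  obtain ⟨a, ha⟩ := IsPGroup.iff_card.mp hM
  have h5 : orderOf n ∣ s ^ a := by rw [← ha]; exact orderOf_dvd_of_pow_eq_one h4
  rw [mem_bot, ← orderOf_eq_one_iff]
  refine Nat.eq_one_of_dvd_coprimes ?_ h5 (dvd_refl _)
  rw [hj]
  exact Nat.Coprime.pow _ _ ((Nat.coprime_primes hs.out ht.out).2 hst)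

/-- in a finite solvable group two of any three primes are joined -/
theorem higman {G : Type u} [Group G] [Finite G] (hsol : Group.IsSolvable G) {p q r : ℕ} (hp : p.Prime) (hq : q.Prime) (hr : r.Prime)
    (hpq : p ≠ q) (hqr : q ≠ r) (hpr : p ≠ r) (h1 : p ∣ Nat.card G) (h2 : q ∣ Nat.card G) (h3 : r ∣ Nat.card G)
    (hna : ∀ a ∈ ({p, q, r} : Set ℕ), ∀ b ∈ ({p, q, r} : Set ℕ), a ≠ b → ∀ g : G, orderOf g ≠ a * b) : False := by
  classical
  set S : Set ℕ := {p, q, r} with hS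
  have hSp : ∀ a ∈ S, a.Prime := by
    rintro a (rfl | rfl | rfl) <;> assumption
  have hSd : ∀ a ∈ S, a ∣ Nat.card G := by
    rintro a (rfl | rfl | rfl) <;> assumption
  obtain ⟨K, hK⟩ := pihall_exists S (G := (⊤ : Subgroup G)) (Group.isSolvable_of_surjective (f := (Subgroup.topEquiv (G := G)).symm.toMonoidHom) (Subgroup.topEquiv (G := G)).symm.surjective)
  have hKd : ∀ a ∈ S, a ∣ Nat.card K := by
    intro a ha
    have h4 := hSd a ha
    rw [← Subgroup.card_mul_index K] at h4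
    rcases (hSp a ha).dvd_mul.1 h4 with h | h
    · exact h
    · have := hK.2.2 a (hSp a ha) ha
      rw [Subgroup.relIndex_top_right] at this
      exact absurd h this
  have hKna : ∀ a ∈ S, ∀ b ∈ S, a ≠ b → ∀ g : K, orderOf g ≠ a * b := by
    intro a ha b hb hab g
    rw [← Subgroup.orderOf_coe]
    exact hna a ha b hb hab g
  have hKs : Group.IsSolvable K := inferInstance
  haveI hKnt : Nontrivial K := by
    rw [← Finite.one_lt_card_iff_nontrivial]
    exact lt_of_lt_of_le (hSp p (by simp [hS])).one_lt (Nat.le_of_dvd Nat.card_pos (hKd p (by simp [hS])))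
  obtain ⟨N, hN, hNb, hmin⟩ := H1.exists_minimal_normal (G := K)
  have hNs : Group.IsSolvable N := inferInstance
  haveI hNc : IsMulCommutative N := H1.isMulCommutative_of_minimal_of_solvable N hNb hmin
  obtain ⟨t, ht, hNt⟩ := H1.exists_prime_pow_eq_one_of_minimal N hNb hmin
  haveI : Fact t.Prime := ⟨ht⟩
  have hNpg : IsPGroup t N := H1.isPGroup_of_pow_eq_one N hNt
  have htS : t ∈ S := by
    apply hK.2.1 t ht
    obtain ⟨k, hk⟩ := IsPGroup.iff_card.mp hNpg
    have hk0 : k ≠ 0 := by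
      rintro rfl
      rw [pow_zero] at hk
      exact hNb (Subgroup.card_eq_one.1 hk)
    exact ((dvd_pow_self t hk0).trans (hk ▸ dvd_rfl)).trans (Subgroup.card_subgroup_dvd_card N)
  -- Hall t'-subgroup
  obtain ⟨H, hH⟩ := pihall_exists {a : ℕ | a ≠ t} (G := (⊤ : Subgroup K)) (Group.isSolvable_of_surjective (f := (Subgroup.topEquiv (G := K)).symm.toMonoidHom) (Subgroup.topEquiv (G := K)).symm.surjective)
  have hHd : ∀ a ∈ S, a ≠ t → a ∣ Nat.card H := by
    intro a ha hat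
    have h4 := hKd a ha
    rw [← Subgroup.card_mul_index H] at h4
    rcases (hSp a ha).dvd_mul.1 h4 with h | h
    · exact h
    · have := hH.2.2 a (hSp a ha) hat
      rw [Subgroup.relIndex_top_right] at this
      exact absurd h this
  have hthird : ∀ a ∈ S, ∀ b ∈ S, ∃ c ∈ S, c ≠ a ∧ c ≠ b := by
    rintro a (rfl | rfl | rfl) b (rfl | rfl | rfl)
    · exact ⟨q, by simp [hS], Ne.symm hpq, Ne.symm hpq⟩
    · exact ⟨r, by simp [hS], Ne.symm hpr, Ne.symm hqr⟩
    · exact ⟨q, by simp [hS], Ne.symm hpq, hqr⟩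
    · exact ⟨r, by simp [hS], Ne.symm hqr, Ne.symm hpr⟩
    · exact ⟨p, by simp [hS], hpq, hpq⟩
    · exact ⟨p, by simp [hS], hpq, hpr⟩
    · exact ⟨q, by simp [hS], hqr, Ne.symm hpq⟩
    · exact ⟨p, by simp [hS], hpr, hpq⟩
    · exact ⟨p, by simp [hS], hpr, hpr⟩
  obtain ⟨c0, hc0, hc0t, -⟩ := hthird t htS t htS
  haveI hHnt : Nontrivial H := by
    rw [← Finite.one_lt_card_iff_nontrivial]
    exact lt_of_lt_of_le (hSp c0 hc0).one_lt (Nat.le_of_dvd Nat.card_pos (hHd c0 hc0 hc0t))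
  obtain ⟨M, hM, hMb, hMmin⟩ := H1.exists_minimal_normal (G := H)
  have hMs : Group.IsSolvable M := inferInstance
  haveI hMc : IsMulCommutative M := H1.isMulCommutative_of_minimal_of_solvable M hMb hMmin
  obtain ⟨s, hs, hMt⟩ := H1.exists_prime_pow_eq_one_of_minimal M hMb hMmin
  haveI : Fact s.Prime := ⟨hs⟩
  have hMpg : IsPGroup s M := H1.isPGroup_of_pow_eq_one M hMt
  have hsH : s ∣ Nat.card H := by
    obtain ⟨k, hk⟩ := IsPGroup.iff_card.mp hMpg
    have hk0 : k ≠ 0 := by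
      rintro rfl
      rw [pow_zero] at hk
      exact hMb (Subgroup.card_eq_one.1 hk)
    exact ((dvd_pow_self s hk0).trans (hk ▸ dvd_rfl)).trans (Subgroup.card_subgroup_dvd_card M)
  have hst : s ≠ t := hH.2.1 s hs hsH
  have hsS : s ∈ S := hK.2.1 s hs (hsH.trans (Subgroup.card_subgroup_dvd_card H))
  obtain ⟨c, hc, hcs, hct⟩ := hthird s hsS t htS
  haveI : Fact c.Prime := ⟨hSp c hc⟩
  obtain ⟨w, hw⟩ := exists_prime_orderOf_dvd_card' (G := H) c (hHd c hc hct)
  exact higman_core (s := s) (t := t) (u' := c) hst (Ne.symm hcs) (Ne.symm hct) (hKna s hsS t htS hst) (hKna c hc s hsS hcs) (hKna c hc t htS hct)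
    N hNpg (fun a ha b hb => congrArg Subtype.val (hNc.1.1 ⟨a, ha⟩ ⟨b, hb⟩)) hNb H M (zpowers w) hMpg hMb
    (IsPGroup.of_card (n := 1) (by rw [Nat.card_zpowers, hw, pow_one]))
    (by
      intro h
      rw [zpowers_eq_bot] at h
      rw [h, orderOf_one] at hw
      exact (hSp c hc).one_lt.ne hw)

end Cfsg.Agent.H3
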