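import Mathlib
import Cfsg.Agent.H3.Basic

set_option autoImplicit false

/-! Jordan's theorem on primitive groups containing a cycle of prime length `p ≤ n - 3`. -/

namespace Cfsg.Agent.H3

open MulAction Equiv Equiv.Perm

section
variable {α : Type*} [Fintype α] [DecidableEq α] {G : Subgroup (Perm α)}

theorem isMultiplyPretransitive_of_prime_cycle (hG : IsPreprimitive G α) {p : ℕ} (hp : p.Prime)
    (hpn : p + 1 ≤ Nat.card α) {g : Perm α} (hgc : g.IsCycle) (hgp : g.support.card = p) (hg : g ∈ G) :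
    IsMultiplyPretransitive G α (Nat.card α - p + 1) := by
  obtain ⟨n, hn⟩ : ∃ n, Nat.card α = p + (n + 1) := ⟨Nat.card α - p - 1, by omega⟩
  have h2 : 2 ≤ p := hp.two_le
  suffices IsMultiplyPreprimitive G α (Nat.card α - p + 1) from
    IsMultiplyPreprimitive.isMultiplyPretransitive ..
  rw [show Nat.card α - p + 1 = n + 2 by omega]
  apply hG.isMultiplyPreprimitive (s := (g.supportᶜ : Set α))
  · apply Nat.add_left_cancel
    rw [Set.ncard_add_ncard_compl, Set.ncard_coe_finset, hgp, hn]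
  · omega
  have := isPretransitive_of_isCycle_mem hgc hg
  apply IsPreprimitive.of_prime_card
  have e : Nat.card (SubMulAction.ofFixingSubgroup G (g.supportᶜ : Set α)) = p := by
    rw [← hgp, ← Fintype.card_coe, ← Nat.card_eq_fintype_card]
    apply Nat.card_congr
    refine Equiv.subtypeEquivRight (fun x => ?_)
    rw [SubMulAction.mem_ofFixingSubgroup_iff]
    simp
  rw [e]; exact hp

/-- a `k`-transitive group induces every permutation of a `k`-subset -/
theorem exists_eqOn_of_isMultiplyPretransitive {k : ℕ} (hG : IsMultiplyPretransitive G α k) (F : Finset α)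
    (hF : F.card = k) (π : Perm α) : ∃ h ∈ G, ∀ x ∈ F, h x = π x := by
  let e : Fin k ≃ F := (Fintype.equivFinOfCardEq (by rw [Fintype.card_coe, hF])).symm
  let x : Fin k ↪ α := e.toEmbedding.trans (Function.Embedding.subtype _)
  let y : Fin k ↪ α := x.trans π.toEmbedding
  obtain ⟨h, hh⟩ := hG.exists_smul_eq x y
  refine ⟨h, h.2, ?_⟩
  intro a ha
  have := congrArg (fun f : Fin k ↪ α => f (e.symm ⟨a, ha⟩)) hh
  have h1 : (h : Perm α) (x (e.symm ⟨a, ha⟩)) = π (x (e.symm ⟨a, ha⟩)) := this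
  have h2 : x (e.symm ⟨a, ha⟩) = a := by
    show ((e (e.symm ⟨a, ha⟩) : F) : α) = a
    rw [Equiv.apply_symm_apply]
  rw [h2] at h1
  exact h1

/-- a permutation commuting with a cycle agrees with a power of the cycle on its support -/
theorem exists_zpow_eqOn_support {g c : Perm α} (hg : g.IsCycle) (hc : Commute c g) :
    ∃ m : ℤ, ∀ x ∈ g.support, c x = (g ^ m) x := by
  obtain ⟨a, ha, hga⟩ := hg
  have hca : g (c a) ≠ c a := by
    intro h
    apply ha
    have h1 : c (g a) = g (c a) := congrArg (fun f : Perm α => f a) hc.eq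
    rw [h] at h1
    exact c.injective h1
  obtain ⟨m, hm⟩ := hga hca
  refine ⟨m, ?_⟩
  intro x hx
  obtain ⟨j, hj⟩ := hga (Equiv.Perm.mem_support.mp hx)
  have h2 : c ((g ^ j) a) = (g ^ j) (c a) := congrArg (fun f : Perm α => f a) (hc.zpow_right j).eq
  rw [← hj, h2, ← hm, ← Equiv.Perm.mul_apply, ← Equiv.Perm.mul_apply, ← zpow_add, ← zpow_add, add_comm]

/-- **Jordan's theorem**: a primitive group containing a cycle of prime length `p` with `p + 3 ≤ n`
contains the alternating group. -/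
theorem alternatingGroup_le_of_prime_cycle (hG : IsPreprimitive G α) {p : ℕ} (hp : p.Prime)
    (hpn : p + 3 ≤ Nat.card α) {g : Perm α} (hgc : g.IsCycle) (hgp : g.support.card = p) (hg : g ∈ G) :
    alternatingGroup α ≤ G := by
  classical
  have := Fact.mk hp
  set F : Finset α := g.supportᶜ with hF
  have hcard : F.card = Nat.card α - p := by
    rw [hF, Finset.card_compl, hgp, Nat.card_eq_fintype_card]
  have h1 := isMultiplyPretransitive_of_prime_cycle hG hp (by omega) hgc hgp hg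
  have hk : IsMultiplyPretransitive G α (Nat.card α - p) :=
    MulAction.isMultiplyPretransitive_of_le (n := Nat.card α - p + 1) (Nat.le_succ _) (by
      have := hp.two_le
      omega)
  -- the pointwise stabilizer of F
  let GF : Subgroup (Perm α) := G ⊓ {
    carrier := {h | ∀ x ∈ F, h x = x}
    one_mem' := fun x _ => rfl
    mul_mem' := fun {a b} ha hb x hx => by rw [Equiv.Perm.mul_apply, hb x hx, ha x hx]
    inv_mem' := fun {a} ha x hx => by rw [Equiv.Perm.inv_eq_iff_eq, ha x hx] }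
  have hgF : ∀ x ∈ F, g x = x := by
    intro x hx
    rw [hF, Finset.mem_compl, Equiv.Perm.notMem_support] at hx
    exact hx
  have hgGF : g ∈ GF := ⟨hg, hgF⟩
  have hgo : orderOf g = p := by rw [hgc.orderOf, hgp]
  -- the centralizer of g in GF is ⟨g⟩
  have hcent : ∀ s ∈ GF, Commute s g → s ∈ Subgroup.zpowers g := by
    intro s hs hc
    obtain ⟨m, hm⟩ := exists_zpow_eqOn_support hgc hc
    refine ⟨m, ?_⟩
    apply Equiv.ext
    intro x
    by_cases hx : x ∈ g.support
    · exact (hm x hx).symm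
    · have hxF : x ∈ F := by rw [hF, Finset.mem_compl]; exact hx
      have h2 : (g ^ m) x = x := by
        have h3 : g x = x := hgF x hxF
        exact Equiv.Perm.zpow_apply_eq_self_of_apply_eq_self h3 m
      show (g ^ m) x = s x
      rw [h2, hs.2 x hxF]
  have hzz : ∀ x ∈ Subgroup.zpowers g, orderOf x = p → g ∈ Subgroup.zpowers x := by
    intro x hx hxo
    have h2 : Subgroup.zpowers x = Subgroup.zpowers g := by
      apply Subgroup.eq_of_le_of_card_ge (by rw [Subgroup.zpowers_le]; exact hx)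
      rw [Nat.card_zpowers, Nat.card_zpowers, hxo, hgo]
    rw [h2]; exact Subgroup.mem_zpowers g
  -- P = ⟨g⟩ is a Sylow p-subgroup of GF
  have hPp : IsPGroup p (Subgroup.zpowers (⟨g, hgGF⟩ : GF)) :=
    IsPGroup.of_card (n := 1) (by rw [Nat.card_zpowers, Subgroup.orderOf_mk, hgo, pow_one])
  obtain ⟨S, hS⟩ := hPp.exists_le_sylow
  have hgS : (⟨g, hgGF⟩ : GF) ∈ (S : Subgroup GF) := hS (Subgroup.mem_zpowers _)
  have hSg : ∀ s ∈ (S : Subgroup GF), (s : Perm α) ∈ Subgroup.zpowers g := by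
    have hnt : Nontrivial (S : Subgroup GF) := by
      refine ⟨⟨⟨⟨g, hgGF⟩, hgS⟩, 1, ?_⟩⟩
      intro h
      have h2 : g = 1 := congrArg (fun x : (S : Subgroup GF) => ((x : GF) : Perm α)) h
      exact hgc.ne_one h2
    have hcn : Nontrivial (Subgroup.center (S : Subgroup GF)) := S.2.center_nontrivial
    obtain ⟨⟨z, hz⟩, hz1⟩ := exists_ne (1 : Subgroup.center (S : Subgroup GF))
    rw [Subgroup.mem_center_iff] at hz
    have hzg : Commute ((z : GF) : Perm α) g := by
      have := hz ⟨⟨g, hgGF⟩, hgS⟩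
      have h2 := congrArg (fun x : (S : Subgroup GF) => ((x : GF) : Perm α)) this
      exact h2.symm
    have hzz' := hcent _ (z : GF).2 hzg
    have hzne : ((z : GF) : Perm α) ≠ 1 := by
      intro h
      apply hz1
      apply Subtype.ext
      apply Subtype.ext
      exact Subtype.ext h
    have hzo : orderOf ((z : GF) : Perm α) = p := by
      have h2 := orderOf_dvd_of_mem_zpowers hzz'
      rw [hgo] at h2
      rcases (Nat.dvd_prime hp).mp h2 with h3 | h3
      · exact absurd (orderOf_eq_one_iff.mp h3) hzne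
      · exact h3
    obtain ⟨j, hj⟩ := hzz _ hzz' hzo
    intro s hs
    apply hcent _ s.2
    have h3 := hz ⟨s, hs⟩
    have h4 : Commute (s : Perm α) ((z : GF) : Perm α) :=
      congrArg (fun x : (S : Subgroup GF) => ((x : GF) : Perm α)) h3
    rw [← hj]
    exact h4.zpow_right j
  -- every permutation of F is induced by an element normalizing ⟨g⟩
  have hnorm : ∀ π : Perm α, (∀ x ∈ F, π x ∈ F) → ∃ h ∈ G, (∀ x ∈ F, h x = π x) ∧ ∃ i : ℤ, h * g * h⁻¹ = g ^ i := by
    intro π hπ
    obtain ⟨h, hh, hhF⟩ := exists_eqOn_of_isMultiplyPretransitive hk F hcard π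
    -- h maps F onto F
    have hsurj : ∀ x ∈ F, ∃ y ∈ F, h y = x := by
      have himg : F.image h = F := by
        apply Finset.eq_of_subset_of_card_le
        · intro y hy
          obtain ⟨x, hx, rfl⟩ := Finset.mem_image.mp hy
          rw [hhF x hx]; exact hπ x hx
        · rw [Finset.card_image_of_injective _ h.injective]
      intro x hx
      rw [← himg] at hx
      obtain ⟨y, hy, hyx⟩ := Finset.mem_image.mp hx
      exact ⟨y, hy, hyx⟩
    have hmem : h * g * h⁻¹ ∈ GF := by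
      refine ⟨G.mul_mem (G.mul_mem hh hg) (G.inv_mem hh), ?_⟩
      intro x hx
      obtain ⟨y, hy, rfl⟩ := hsurj x hx
      rw [Equiv.Perm.mul_apply, Equiv.Perm.mul_apply]
      have : h⁻¹ (h y) = y := by simp
      rw [this, hgF y hy]
    have hord : orderOf (⟨h * g * h⁻¹, hmem⟩ : GF) = p ^ 1 := by
      rw [Subgroup.orderOf_mk, pow_one, ← hgo]
      have := MulEquiv.orderOf_eq (MulAut.conj h) g
      simpa using this
    obtain ⟨c, hc⟩ := exists_conj_mem_sylow S ⟨1, hord⟩
    obtain ⟨i, hi⟩ := hSg _ hc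
    have hi' : g ^ i = (c : Perm α)⁻¹ * (h * g * h⁻¹) * c := hi
    refine ⟨(c : Perm α)⁻¹ * h, G.mul_mem (G.inv_mem c.2.1) hh, ?_, i, ?_⟩
    · intro x hx
      rw [Equiv.Perm.mul_apply, hhF x hx]
      exact (GF.inv_mem c.2).2 _ (hπ x hx)
    · rw [hi']; group
  -- three points of F
  have hF3 : 2 < F.card := by rw [hcard]; omega
  obtain ⟨a, b, d, ha, hb, hd, hab, had, hbd⟩ := Finset.two_lt_card_iff.mp hF3
  have hπ1 : ∀ x ∈ F, (swap a b) x ∈ F := by
    intro x hx
    rw [Equiv.swap_apply_def]; split_ifs <;> assumption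
  have hπ2 : ∀ x ∈ F, (swap b d) x ∈ F := by
    intro x hx
    rw [Equiv.swap_apply_def]; split_ifs <;> assumption
  obtain ⟨h1', hh1, hh1F, i, hi⟩ := hnorm _ hπ1
  obtain ⟨h2', hh2, hh2F, j, hj⟩ := hnorm _ hπ2
  have hinv1 : ∀ x ∈ F, h1'⁻¹ x = swap a b x := by
    intro x hx
    rw [Equiv.Perm.inv_eq_iff_eq, hh1F _ (hπ1 x hx), Equiv.swap_apply_self]
  have hinv2 : ∀ x ∈ F, h2'⁻¹ x = swap b d x := by
    intro x hx
    rw [Equiv.Perm.inv_eq_iff_eq, hh2F _ (hπ2 x hx), Equiv.swap_apply_self]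
  set c0 := h1' * h2' * h1'⁻¹ * h2'⁻¹ with hc0
  have hc0G : c0 ∈ G := G.mul_mem (G.mul_mem (G.mul_mem hh1 hh2) (G.inv_mem hh1)) (G.inv_mem hh2)
  have hX : (h1' * h2') * g * (h1' * h2')⁻¹ = g ^ (i * j) := by
    calc (h1' * h2') * g * (h1' * h2')⁻¹ = h1' * (h2' * g * h2'⁻¹) * h1'⁻¹ := by group
      _ = h1' * g ^ j * h1'⁻¹ := by rw [hj]
      _ = (h1' * g * h1'⁻¹) ^ j := by rw [conj_zpow]
      _ = g ^ (i * j) := by rw [hi, zpow_mul]
  have hY : (h2' * h1') * g * (h2' * h1')⁻¹ = g ^ (i * j) := by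
    calc (h2' * h1') * g * (h2' * h1')⁻¹ = h2' * (h1' * g * h1'⁻¹) * h2'⁻¹ := by group
      _ = h2' * g ^ i * h2'⁻¹ := by rw [hi]
      _ = (h2' * g * h2'⁻¹) ^ i := by rw [conj_zpow]
      _ = g ^ (i * j) := by rw [hj, ← zpow_mul, mul_comm]
  have hcomm0 : Commute c0 (g ^ (i * j)) := by
    show c0 * g ^ (i * j) = g ^ (i * j) * c0
    nth_rewrite 1 [← hY]
    rw [← hX, hc0]
    group
  have hYo : orderOf (g ^ (i * j)) = p := by
    rw [← hX, ← hgo]
    have := MulEquiv.orderOf_eq (MulAut.conj (h1' * h2')) g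
    rw [MulAut.conj_apply] at this
    exact this
  obtain ⟨l, hl⟩ := hzz _ (Subgroup.zpow_mem _ (Subgroup.mem_zpowers g) _) hYo
  have hcomm : Commute c0 g := by
    rw [← hl]; exact hcomm0.zpow_right l
  obtain ⟨m, hm⟩ := exists_zpow_eqOn_support hgc hcomm
  have hc0F : ∀ x ∈ F, c0 x = (swap a b * swap b d * (swap a b * swap b d)) x := by
    intro x hx
    rw [hc0]
    simp only [Equiv.Perm.mul_apply]
    rw [hinv2 x hx, hinv1 _ (hπ2 x hx), hh2F _ (hπ1 _ (hπ2 x hx)), hh1F _ (hπ2 _ (hπ1 _ (hπ2 x hx)))]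
  have hgz : ∀ n : ℤ, ∀ x ∈ F, (g ^ n) x = x := fun n x hx =>
    Equiv.Perm.zpow_apply_eq_self_of_apply_eq_self (hgF x hx) n
  have hfinal : g ^ (-m) * c0 = swap a b * swap b d * (swap a b * swap b d) := by
    apply Equiv.ext
    intro x
    by_cases hx : x ∈ g.support
    · have hxF : x ∉ F := by rw [hF, Finset.mem_compl, not_not]; exact hx
      rw [Equiv.Perm.mul_apply, hm x hx, ← Equiv.Perm.mul_apply, ← zpow_add]
      simp only [neg_add_cancel, zpow_zero, Equiv.Perm.coe_one, id_eq]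
      have hxa : x ≠ a := fun h => hxF (h ▸ ha)
      have hxb : x ≠ b := fun h => hxF (h ▸ hb)
      have hxd : x ≠ d := fun h => hxF (h ▸ hd)
      simp only [Equiv.Perm.mul_apply]
      rw [Equiv.swap_apply_of_ne_of_ne hxb hxd, Equiv.swap_apply_of_ne_of_ne hxa hxb,
        Equiv.swap_apply_of_ne_of_ne hxb hxd, Equiv.swap_apply_of_ne_of_ne hxa hxb]
    · have hxF : x ∈ F := by rw [hF, Finset.mem_compl]; exact hx
      rw [Equiv.Perm.mul_apply, hc0F x hxF]
      apply hgz
      simp only [Equiv.Perm.mul_apply]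
      exact hπ1 _ (hπ2 _ (hπ1 _ (hπ2 x hxF)))
  have h3 : (swap a b * swap b d).IsThreeCycle := by
    rw [Equiv.swap_comm a b]
    exact Equiv.Perm.isThreeCycle_swap_mul_swap_same hab.symm hbd had
  have h4 : (g ^ (-m) * c0).IsThreeCycle := by
    rw [hfinal]; exact h3.isThreeCycle_sq
  exact Equiv.Perm.alternatingGroup_le_of_isPreprimitive_of_isThreeCycle_mem hG h4
    (G.mul_mem (G.zpow_mem hg _) hc0G)
end

end Cfsg.Agent.H3
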