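import Mathlib

set_option autoImplicit false
set_option linter.style.haveILetI false

/-! pairings of finite groups -/

namespace Cfsg.Agent.H3

open Subgroup

theorem pairing_le {A B : Type*} [Group A] [Finite A] [Group B] [Finite B] (β : A →* (B →* ℂˣ)) :
    β.flip.ker.index ≤ β.ker.index := by
  classical
  let R := β.range
  haveI : Finite R := Finite.of_surjective _ β.rangeRestrict_surjective
  let γ : B →* (R →* ℂˣ) :=
    { toFun := fun b => { toFun := fun r => (r : B →* ℂˣ) b, map_one' := rfl, map_mul' := fun r s => rfl }
      map_one' := by ext r; simp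
      map_mul' := by intro a b; ext r; simp }
  have hk : γ.ker = β.flip.ker := by
    ext b
    rw [MonoidHom.mem_ker, MonoidHom.mem_ker]
    constructor
    · intro h
      ext a
      have h1 := DFunLike.congr_fun h (⟨β a, a, rfl⟩ : R)
      exact congrArg Units.val h1
    · intro h
      ext ⟨_, a, rfl⟩
      have h1 := DFunLike.congr_fun h a
      exact congrArg Units.val h1
  have h1 : γ.ker.index = Nat.card γ.range := Subgroup.index_ker γ
  have h2 : β.ker.index = Nat.card β.range := Subgroup.index_ker β
  have h3 : Nat.card (R →* ℂˣ) = Nat.card R := CommGroup.card_monoidHom_of_hasEnoughRootsOfUnity R ℂ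
  haveI : Finite (R →* ℂˣ) := Nat.finite_of_card_ne_zero (by rw [h3]; exact Nat.card_pos.ne')
  rw [← hk, h1, h2, ← h3]
  exact Nat.card_le_card_of_injective (Subtype.val : γ.range → (R →* ℂˣ)) Subtype.val_injective

theorem pairing_eq {A B : Type*} [Group A] [Finite A] [Group B] [Finite B] (β : A →* (B →* ℂˣ)) :
    β.ker.index = β.flip.ker.index := by
  apply le_antisymm
  · have := pairing_le β.flip
    have h : β.flip.flip = β := by ext a b; rfl
    rwa [h] at this
  · exact pairing_le β

end Cfsg.Agent.H3
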