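import Mathlib
import Cfsg.Prelude.Def_OddOrderLocal
import Cfsg.Agent.H1.Class2

set_option autoImplicit false

namespace Cfsg.Agent.H3
open Cfsg

theorem puigStep_anti {G : Type*} [Group G] {X Y : Subgroup G} (h : X ≤ Y) : puigStep Y ≤ puigStep X :=
  sSup_le_sSup (fun _ hA => ⟨hA.1, h.trans hA.2⟩)

theorem puigSeq_zero (G : Type*) [Group G] : puigSeq G 0 = ⊥ := rfl

theorem puigSeq_succ (G : Type*) [Group G] (n : ℕ) : puigSeq G (n + 1) = puigStep (puigSeq G n) := rfl

theorem puigSeq_one (G : Type*) [Group G] : puigSeq G 1 = ⊤ := by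
  rw [← top_le_iff]
  intro x _
  have h : Subgroup.zpowers x ≤ puigStep (⊥ : Subgroup G) := le_sSup ⟨inferInstance, bot_le⟩
  exact h (Subgroup.mem_zpowers x)

theorem puigSeq_even_odd (G : Type*) [Group G] (n : ℕ) :
    puigSeq G (2 * n) ≤ puigSeq G (2 * n + 2) ∧ puigSeq G (2 * n + 3) ≤ puigSeq G (2 * n + 1) ∧
      puigSeq G (2 * n) ≤ puigSeq G (2 * n + 1) := by
  induction n with
  | zero =>
    refine ⟨bot_le, ?_, bot_le⟩
    show _ ≤ puigSeq G 1
    rw [puigSeq_one]; exact le_top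
  | succ n ih =>
    obtain ⟨h1, h2, h3⟩ := ih
    have a1 : puigSeq G (2 * n + 2) ≤ puigSeq G (2 * n + 4) := puigStep_anti h2
    have a2 : puigSeq G (2 * n + 5) ≤ puigSeq G (2 * n + 3) := puigStep_anti a1
    have a3 : puigSeq G (2 * n + 2) ≤ puigSeq G (2 * n + 1) := puigStep_anti h3
    have a4 : puigSeq G (2 * n + 2) ≤ puigSeq G (2 * n + 3) := puigStep_anti a3
    exact ⟨a1, a2, a4⟩

theorem puigSeq_even_mono (G : Type*) [Group G] {n m : ℕ} (h : n ≤ m) : puigSeq G (2 * n) ≤ puigSeq G (2 * m) := by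
  induction m, h using Nat.le_induction with
  | base => exact le_rfl
  | succ m _ ih => exact ih.trans (puigSeq_even_odd G m).1

theorem puigSeq_odd_anti (G : Type*) [Group G] {n m : ℕ} (h : n ≤ m) : puigSeq G (2 * m + 1) ≤ puigSeq G (2 * n + 1) := by
  induction m, h using Nat.le_induction with
  | base => exact le_rfl
  | succ m _ ih => exact (puigSeq_even_odd G m).2.1.trans ih

theorem puigSeq_even_le_odd (G : Type*) [Group G] (n m : ℕ) : puigSeq G (2 * n) ≤ puigSeq G (2 * m + 1) := by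
  rcases le_total n m with h | h
  · exact (puigSeq_even_mono G h).trans (puigSeq_even_odd G m).2.2
  · exact (puigSeq_even_odd G n).2.2.trans (puigSeq_odd_anti G h)

theorem puig_stab (G : Type*) [Group G] [Finite G] :
    ∃ k : ℕ, ∀ n : ℕ, k ≤ n → puigSeq G (2 * n) = puigLower G ∧ puigSeq G (2 * n + 1) = puigSubgroup G := by
  obtain ⟨k, hk⟩ := WellFoundedGT.monotone_chain_condition
    (⟨fun n => puigSeq G (2 * n), fun _ _ h => puigSeq_even_mono G h⟩ : ℕ →o Subgroup G)
  replace hk : ∀ m, k ≤ m → puigSeq G (2 * k) = puigSeq G (2 * m) := fun m hm => hk m hm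
  have h1 : ∀ n, k ≤ n → puigSeq G (2 * n) = puigLower G := by
    intro n hn
    apply le_antisymm
    · exact le_iSup (fun n => puigSeq G (2 * n)) n
    · apply iSup_le
      intro m
      rcases le_total n m with h | h
      · rw [← hk m (hn.trans h), hk n hn]
      · exact puigSeq_even_mono G h
  refine ⟨k, fun n hn => ⟨h1 n hn, ?_⟩⟩
  have h2 : ∀ n, k ≤ n → puigSeq G (2 * n + 1) = puigStep (puigLower G) := fun n hn => by
    rw [puigSeq_succ, h1 n hn]
  rw [h2 n hn]
  apply le_antisymm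
  · apply le_iInf
    intro m
    have h3 := h2 (max k m) (le_max_left _ _)
    rw [← h3]
    exact puigSeq_odd_anti G (le_max_right _ _)
  · rw [← h2 n hn]
    exact iInf_le (fun n => puigSeq G (2 * n + 1)) n

end Cfsg.Agent.H3
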