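import Mathlib
import Cfsg.Prelude
import Cfsg.Agent.L0.Coprime
import Cfsg.Agent.L0.Fus.Bis13
import Cfsg.Agent.H1.FrobPC
import Cfsg.Agent.H6.Critical4
import Cfsg.Agent.H3.Basic

set_option autoImplicit false
set_option linter.all false
open Cfsg
open Subgroup
open scoped commutatorElement

namespace Cfsg.Agent.H3

theorem aut_triv {V : Type*} [Group V] [Finite V] {p q e : ℕ} (hp : p.Prime) [hq : Fact q.Prime] (hqp : q ≠ p)
    (hV : Nat.card V = p ^ e)
    (h : ∀ i, 1 ≤ i → i ≤ e → ¬ q ∣ p ^ i - 1) (σ : MulAut V) (hσ : ∃ k, orderOf σ = q ^ k) (v : V) : σ v = v := by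
  classical
  obtain ⟨k, hk⟩ := hσ
  have hG : IsPGroup q (zpowers σ) := IsPGroup.of_card (n := k) (by rw [Nat.card_zpowers, hk])
  have h1 := hG.card_modEq_card_fixedPoints V
  let F : Subgroup V :=
    { carrier := {v | σ v = v}
      mul_mem' := by intro a b ha hb; simp only [Set.mem_setOf_eq] at *; rw [map_mul, ha, hb]
      one_mem' := by simp
      inv_mem' := by intro a ha; simp only [Set.mem_setOf_eq] at *; rw [map_inv, ha] }
  have hF : MulAction.fixedPoints (zpowers σ) V = (F : Set V) := by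
    ext v
    constructor
    · intro hv
      exact hv ⟨σ, mem_zpowers σ⟩
    · intro hv g
      have h2 : σ ∈ MulAction.stabilizer (MulAut V) v := hv
      have h3 : zpowers σ ≤ MulAction.stabilizer (MulAut V) v := by rw [zpowers_le]; exact h2
      exact h3 g.2
  have hFc : Nat.card (MulAction.fixedPoints (zpowers σ) V) = Nat.card F := by
    rw [hF]; rfl
  rw [hFc, hV] at h1
  obtain ⟨c, hc, hFp⟩ := (Nat.dvd_prime_pow hp).1 (hV ▸ Subgroup.card_subgroup_dvd_card F)
  rw [hFp] at h1
  have hce : c = e := by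
    by_contra hne
    have hlt : c < e := lt_of_le_of_ne hc hne
    have h2 := (Nat.modEq_iff_dvd' (Nat.pow_le_pow_right hp.pos hc)).1 h1.symm
    have h3 : p ^ e - p ^ c = p ^ c * (p ^ (e - c) - 1) := by
      rw [Nat.mul_sub, ← pow_add, mul_one]
      congr 2
      omega
    rw [h3] at h2
    rcases (hq.out.dvd_mul).1 h2 with h4 | h4
    · exact hqp ((Nat.prime_dvd_prime_iff_eq hq.out hp).1 (hq.out.dvd_of_dvd_pow h4))
    · exact h (e - c) (by omega) (by omega) h4
  have htop : F = ⊤ := by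
    apply Subgroup.eq_top_of_card_eq
    rw [hFp, hce, hV]
  have : v ∈ F := by rw [htop]; trivial
  exact this

theorem card_frattini_quot {P : Type*} [Group P] [Finite P] {p : ℕ} [hp : Fact p.Prime] (hP : IsPGroup p P) :
    ∃ e ≤ Group.rank P, Nat.card (P ⧸ frattini P) = p ^ e := by
  classical
  letI : CommGroup (P ⧸ frattini P) :=
    { (inferInstance : Group (P ⧸ frattini P)) with
      mul_comm := by
        intro a b
        obtain ⟨x, rfl⟩ := QuotientGroup.mk_surjective a
        obtain ⟨y, rfl⟩ := QuotientGroup.mk_surjective b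
        show (x : P ⧸ frattini P) * (y : P ⧸ frattini P) = y * x
        rw [← QuotientGroup.mk_mul, ← QuotientGroup.mk_mul, QuotientGroup.eq]
        have h1 := L0.Fus.commutator_le_frattini hP
        apply h1
        have : (x * y)⁻¹ * (y * x) = ⁅y⁻¹, x⁻¹⁆ := by
          rw [commutatorElement_def]; group
        rw [this]
        exact commutator_mem_commutator (mem_top _) (mem_top _) }
  have h1 : Nat.card (P ⧸ frattini P) ∣ p ^ Group.rank (P ⧸ frattini P) := by
    apply _root_.card_dvd_exponent_pow_rank'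
    intro g
    obtain ⟨x, rfl⟩ := QuotientGroup.mk_surjective g
    have := H6.pow_mem_frattini hP x
    show (x : P ⧸ frattini P) ^ p = 1
    rw [← QuotientGroup.mk_pow, QuotientGroup.eq_one_iff]
    exact this
  obtain ⟨e, he, hc⟩ := (Nat.dvd_prime_pow hp.out).1 h1
  refine ⟨e, he.trans ?_, hc⟩
  exact Group.rank_le_of_surjective (QuotientGroup.mk' (frattini P)) (QuotientGroup.mk'_surjective _)

theorem rank_centralizes {G : Type*} [Group G] [Finite G] {p q d : ℕ} [hp : Fact p.Prime] [hq : Fact q.Prime] (hqp : q ≠ p)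
    {Q : Subgroup G} (hQ : IsPGroup p Q) (hd : Group.rank Q ≤ d) (h : ∀ i, 1 ≤ i → i ≤ d → ¬ q ∣ p ^ i - 1)
    {a : G} (ha : a ∈ normalizer (Q : Set G)) (hk : ∃ k, orderOf a = q ^ k) : a ∈ centralizer (Q : Set G) := by
  classical
  obtain ⟨e, he, hc⟩ := card_frattini_quot hQ
  have hn : zpowers a ≤ normalizer (Q : Set G) := by rw [zpowers_le]; exact ha
  obtain ⟨k, hk⟩ := hk
  have hcop : (Nat.card (zpowers a)).Coprime (Nat.card Q) := by
    obtain ⟨j, hj⟩ := IsPGroup.iff_card.mp hQ
    rw [Nat.card_zpowers, hk, hj]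
    exact Nat.Coprime.pow _ _ ((Nat.coprime_primes hq.out hp.out).2 hqp)
  have hs : Group.IsSolvable (zpowers a) ∨ Group.IsSolvable Q := by
    left; infer_instance
  -- conjugation as automorphism
  let τ : (normalizer (Q : Set G)) →* MulAut Q := Subgroup.normalizerMonoidHom Q
  have hτ : ∀ (x : Q), ((τ ⟨a, ha⟩ x : Q) : G) = a * x * a⁻¹ := fun x => rfl
  haveI : (frattini Q).Characteristic := inferInstance
  have hch : (frattini Q).map ((τ ⟨a, ha⟩ : MulAut Q) : Q →* Q) = frattini Q :=
    Subgroup.characteristic_iff_map_eq.1 inferInstance _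
  let σ : (Q ⧸ frattini Q) ≃* (Q ⧸ frattini Q) := QuotientGroup.congr (frattini Q) (frattini Q) (τ ⟨a, ha⟩) hch
  have hσ : ∀ x : Q, σ (x : Q ⧸ frattini Q) = ((τ ⟨a, ha⟩ x : Q) : Q ⧸ frattini Q) := fun x => rfl
  have hord : ∃ k, orderOf (σ : MulAut (Q ⧸ frattini Q)) = q ^ k := by
    have h1 : (τ ⟨a, ha⟩) ^ (q ^ k) = 1 := by
      rw [← map_pow]
      have : (⟨a, ha⟩ : normalizer (Q : Set G)) ^ (q ^ k) = 1 := by
        apply Subtype.ext
        show a ^ (q ^ k) = 1
        rw [← hk, pow_orderOf_eq_one]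
      rw [this, map_one]
    have h3 : ∀ (n : ℕ) (x : Q), ((σ : MulAut (Q ⧸ frattini Q)) ^ n) (x : Q ⧸ frattini Q) = (((τ ⟨a, ha⟩) ^ n) x : Q) := by
      intro n
      induction n with
      | zero => intro x; simp
      | succ n ih =>
        intro x
        rw [pow_succ, pow_succ, MulAut.mul_apply, MulAut.mul_apply, hσ, ih]
    have h2 : (σ : MulAut (Q ⧸ frattini Q)) ^ (q ^ k) = 1 := by
      ext y
      obtain ⟨x, rfl⟩ := QuotientGroup.mk_surjective y
      rw [h3, h1]
      rfl
    obtain ⟨j, -, hj⟩ := (Nat.dvd_prime_pow hq.out).1 (orderOf_dvd_of_pow_eq_one h2)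
    exact ⟨j, hj⟩
  have hfix := aut_triv hp.out hqp hc (fun i h1 h2 => h i h1 (h2.trans (he.trans hd))) σ hord
  have hcomm : ⁅Q, zpowers a⁆ ≤ (frattini Q).map Q.subtype := by
    have hstab : ∀ g ∈ zpowers a, ∀ x : Q, ∀ hg : g ∈ normalizer (Q : Set G),
        (((τ ⟨g, hg⟩ x : Q)) : Q ⧸ frattini Q) = (x : Q ⧸ frattini Q) := by
      rintro _ ⟨n, rfl⟩ x hg
      have hgen : ∀ (n : ℕ) (x : Q), (((τ ⟨a, ha⟩) ^ n) x : Q ⧸ frattini Q) = x := by
        intro n
        induction n with
        | zero => intro x; simp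
        | succ n ih =>
          intro x
          rw [pow_succ, MulAut.mul_apply, ih, ← hσ, hfix]
      have hpow : ∃ m : ℕ, a ^ n = a ^ m := by
        have := (mem_powers_iff_mem_zpowers (x := a) (y := a ^ n)).2 ⟨n, rfl⟩
        obtain ⟨m, hm⟩ := this
        exact ⟨m, hm.symm⟩
      obtain ⟨m, hm⟩ := hpow
      have e : (⟨a ^ n, hg⟩ : normalizer (Q : Set G)) = ⟨a, ha⟩ ^ m := Subtype.ext (by simpa using hm)
      have e2 : τ ⟨(fun n : ℤ => a ^ n) n, hg⟩ = (τ ⟨a, ha⟩) ^ m := by
        rw [← map_pow]; exact congrArg τ e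
      rw [e2]
      exact hgen m x
    rw [commutator_le]
    intro x hx g hg
    have h1 := hstab g hg ⟨x, hx⟩⁻¹ (hn hg)
    rw [QuotientGroup.eq] at h1
    have h2 := inv_mem h1
    refine ⟨_, h2, ?_⟩
    simp only [Subgroup.coe_subtype, Subgroup.coe_mul, InvMemClass.coe_inv]
    have e3 : ((τ ⟨g, hn hg⟩ (⟨x, hx⟩⁻¹ : Q) : Q) : G) = g * x⁻¹ * g⁻¹ := rfl
    rw [e3, commutatorElement_def]
    group
  have := L0.commutator_eq_bot_of_le_frattini hn hcop hs hcomm
  rw [commutator_comm, commutator_eq_bot_iff_le_centralizer] at this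
  exact this (mem_zpowers a)

theorem npc_of_rank {G : Type*} [Group G] [Finite G] {p d : ℕ} [hp : Fact p.Prime] (P : Sylow p G)
    (hab : IsMulCommutative (P : Subgroup G)) (hd : Group.rank (P : Subgroup G) ≤ d)
    (h : ∀ q : ℕ, q.Prime → q ∣ Nat.card G → q ≠ p → ∀ i, 1 ≤ i → i ≤ d → ¬ q ∣ p ^ i - 1) : HasNormalPComplement p G := by
  apply H1.hasNormalPComplement_of_normalizer_le_centralizer P
  have key : (centralizer ((P : Subgroup G) : Set G)).subgroupOf (normalizer ((P : Subgroup G) : Set G)) = ⊤ := by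
    apply H1.eq_top_of_forall_sylow_le
    intro q hq
    obtain ⟨Q⟩ : Nonempty (Sylow q (normalizer ((P : Subgroup G) : Set G))) := inferInstance
    refine ⟨Q, ?_⟩
    intro y hy
    rw [mem_subgroupOf]
    obtain ⟨k, hk⟩ := (IsPGroup.iff_orderOf.mp Q.2) ⟨y, hy⟩
    rw [Subgroup.orderOf_mk] at hk
    by_cases hqp : q = p
    · subst hqp
      have h1 : (y : G) ∈ (P : Subgroup G) := by
        have hle : zpowers (y : G) ≤ normalizer ((P : Subgroup G) : Set G) := by rw [zpowers_le]; exact y.2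
        have h2 : IsPGroup q ((zpowers (y : G) ⊔ (P : Subgroup G) : Subgroup G)) := by
          have h3 : IsPGroup q (zpowers (y : G)) := IsPGroup.of_card (n := k) (by
            rw [Nat.card_zpowers, Subgroup.orderOf_coe, hk])
          exact h3.to_sup_of_normal_right' P.2 hle
        have h4 := P.3 h2 le_sup_right
        have h5 : (y : G) ∈ (zpowers (y : G) ⊔ (P : Subgroup G) : Subgroup G) :=
          (le_sup_left : zpowers (y : G) ≤ zpowers (y : G) ⊔ (P : Subgroup G)) (mem_zpowers _)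
        exact h4.le h5
      exact (Subgroup.le_centralizer_iff_isMulCommutative.2 hab) h1
    · have hone : orderOf (y : G) = q ^ k := by rw [Subgroup.orderOf_coe, hk]
      rcases Nat.eq_zero_or_pos k with rfl | hk0
      · rw [pow_zero, orderOf_eq_one_iff] at hone
        rw [hone]; exact one_mem _
      · have hqd : q ∣ Nat.card G := (dvd_pow_self q hk0.ne').trans (hone ▸ _root_.orderOf_dvd_natCard _)
        exact rank_centralizes hqp P.2 hd (h q hq.out hqd hqp) y.2 ⟨k, hone⟩
  intro g hg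
  have h1 : (⟨g, hg⟩ : normalizer ((P : Subgroup G) : Set G)) ∈
      (centralizer ((P : Subgroup G) : Set G)).subgroupOf (normalizer ((P : Subgroup G) : Set G)) := by rw [key]; trivial
  rw [mem_subgroupOf] at h1
  exact h1

end Cfsg.Agent.H3
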