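import Mathlib
import Cfsg.Prelude
import Cfsg.Agent.L0.Coprime2
import Cfsg.Agent.H1.Basic

set_option autoImplicit false
set_option linter.all false
open Cfsg
open Subgroup
open scoped commutatorElement

namespace Cfsg.Agent.H3
universe u

section
variable {G : Type*} [Group G]

/-- the elements normalizing `E` and centralizing `h` modulo `E` -/
def centMod (E : Subgroup G) (h : G) : Subgroup G where
  carrier := {x | x ∈ normalizer (E : Set G) ∧ x * h * x⁻¹ * h⁻¹ ∈ E}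
  one_mem' := ⟨one_mem _, by simp⟩
  mul_mem' := by
    rintro x y ⟨hx, hx2⟩ ⟨hy, hy2⟩
    refine ⟨mul_mem hx hy, ?_⟩
    have e : x * y * h * (x * y)⁻¹ * h⁻¹ = (x * (y * h * y⁻¹ * h⁻¹) * x⁻¹) * (x * h * x⁻¹ * h⁻¹) := by group
    rw [e]
    exact mul_mem ((mem_normalizer_iff.1 hx _).1 hy2) hx2
  inv_mem' := by
    rintro x ⟨hx, hx2⟩
    refine ⟨inv_mem hx, ?_⟩
    have e : x⁻¹ * h * x⁻¹⁻¹ * h⁻¹ = x⁻¹ * (x * h * x⁻¹ * h⁻¹)⁻¹ * x⁻¹⁻¹ := by group
    rw [e]
    exact (mem_normalizer_iff.1 (inv_mem hx) _).1 (inv_mem hx2)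

theorem comm_closure_le {a b : G} {E : Subgroup G} (ha : a ∈ normalizer (E : Set G)) (hb : b ∈ normalizer (E : Set G))
    (hab : a * b * a⁻¹ * b⁻¹ ∈ E) : ⁅closure ({a, b} : Set G), closure ({a, b} : Set G)⁆ ≤ E := by
  have hba : b * a * b⁻¹ * a⁻¹ ∈ E := by
    have : b * a * b⁻¹ * a⁻¹ = (a * b * a⁻¹ * b⁻¹)⁻¹ := by group
    rw [this]; exact inv_mem hab
  have h1 : closure ({a, b} : Set G) ≤ centMod E a := by
    rw [closure_le]
    rintro x (rfl | rfl)
    · exact ⟨ha, by simp⟩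
    · exact ⟨hb, hba⟩
  have h2 : closure ({a, b} : Set G) ≤ centMod E b := by
    rw [closure_le]
    rintro x (rfl | rfl)
    · exact ⟨ha, hab⟩
    · exact ⟨hb, by simp⟩
  rw [Subgroup.commutator_le]
  intro x hx h hh
  have h3 : closure ({a, b} : Set G) ≤ centMod E h := by
    rw [closure_le]
    rintro y (rfl | rfl)
    · refine ⟨ha, ?_⟩
      have := (h1 hh).2
      have e : y * h * y⁻¹ * h⁻¹ = (h * y * h⁻¹ * y⁻¹)⁻¹ := by group
      rw [e]; exact inv_mem this
    · refine ⟨hb, ?_⟩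
      have := (h2 hh).2
      have e : y * h * y⁻¹ * h⁻¹ = (h * y * h⁻¹ * y⁻¹)⁻¹ := by group
      rw [e]; exact inv_mem this
  rw [commutatorElement_def]
  exact (h3 hx).2

theorem lt_of_comm_ne_bot [Finite G] (hG : Group.IsNilpotent G) {H : Subgroup G} {a : G} (ha : a ∈ H) (hD : ⁅H, H⁆ ≠ ⊥) :
    zpowers a ⊔ ⁅H, H⁆ < H := by
  refine lt_of_le_of_ne (sup_le (by rwa [zpowers_le]) (Subgroup.commutator_le_self H)) ?_
  intro he
  apply hD
  have hHn : Group.IsNilpotent H := inferInstance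
  have h1 : zpowers (⟨a, ha⟩ : H) ⊔ commutator H = ⊤ := by
    apply Subgroup.map_injective H.subtype_injective
    rw [Subgroup.map_sup, MonoidHom.map_zpowers, _root_.commutator_def, Subgroup.map_commutator, ← MonoidHom.range_eq_map,
      Subgroup.range_subtype]
    exact he
  have h2 := L0.eq_top_of_sup_commutator_eq_top hHn _ h1
  rw [eq_bot_iff, Subgroup.commutator_le]
  intro x hx y hy
  rw [mem_bot, commutatorElement_eq_one_iff_mul_comm]
  have hx' : (⟨x, hx⟩ : H) ∈ zpowers (⟨a, ha⟩ : H) := by rw [h2]; trivial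
  have hy' : (⟨y, hy⟩ : H) ∈ zpowers (⟨a, ha⟩ : H) := by rw [h2]; trivial
  obtain ⟨m, hm⟩ := mem_zpowers_iff.1 hx'
  obtain ⟨n, hn⟩ := mem_zpowers_iff.1 hy'
  have hm' : a ^ m = x := congrArg Subtype.val hm
  have hn' : a ^ n = y := congrArg Subtype.val hn
  rw [← hm', ← hn', ← zpow_add, ← zpow_add, add_comm]

theorem powerClosure_eq_one {p n : ℕ} {H : Subgroup G} (h : ∀ x ∈ H, x ^ p ^ n = 1) {c : G} (hc : c ∈ powerClosure p n H) : c = 1 := by
  have h1 : powerClosure p n H ≤ ⊥ := by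
    rw [powerClosure, closure_le]
    rintro y ⟨x, hx, rfl⟩
    rw [SetLike.mem_coe, mem_bot]
    exact h x hx
  exact mem_bot.1 (h1 hc)

theorem reg_omega_aux [Finite G] {p : ℕ} [hp : Fact p.Prime] (hG : IsRegularPGroup p G) (k : ℕ) (n : ℕ) : ∀ K : Subgroup G, Nat.card K = n →
    ∀ a ∈ K, ∀ b ∈ K, a ^ p ^ k = 1 → b ^ p ^ k = 1 → (a * b) ^ p ^ k = 1 := by
  induction n using Nat.strong_induction_on with
  | _ n ih =>
  intro K hK a ha b hb ha1 hb1
  haveI := hG.1.isNilpotent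
  obtain ⟨c, hc, hc2⟩ := hG.2 a b k
  rw [hc2, ha1, hb1, one_mul, one_mul]
  set H := closure ({a, b} : Set G) with hH
  have haH : a ∈ H := subset_closure (by simp)
  have hbH : b ∈ H := subset_closure (by simp)
  have hHK : H ≤ K := by
    rw [hH, closure_le]
    rintro x (rfl | rfl)
    · exact ha
    · exact hb
  by_cases hD : ⁅H, H⁆ = ⊥
  · apply powerClosure_eq_one _ hc
    intro x hx
    rw [hD, mem_bot] at hx
    rw [hx, one_pow]
  · have hlt := lt_of_comm_ne_bot (G := G) inferInstance haH hD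
    set L := zpowers a ⊔ ⁅H, H⁆ with hL
    have hcard : ∀ X : Subgroup G, X < H → Nat.card X < n := by
      intro X hX
      rw [← hK]
      refine lt_of_lt_of_le ?_ (Subgroup.card_le_of_le hHK)
      refine lt_of_le_of_ne (Subgroup.card_le_of_le hX.le) ?_
      intro h
      exact hX.ne (Subgroup.eq_of_le_of_card_ge hX.le h.ge)
    have hDL : ⁅H, H⁆ ≤ L := le_sup_right
    have ihD := ih _ (hcard _ (lt_of_le_of_lt hDL hlt)) ⁅H, H⁆ rfl
    have ihL := ih _ (hcard _ hlt) L rfl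
    -- the commutator
    have haL : a ∈ L := mem_sup_left (mem_zpowers a)
    have hcab : a * b * a⁻¹ * b⁻¹ ∈ ⁅H, H⁆ := by
      rw [← commutatorElement_def]; exact commutator_mem_commutator haH hbH
    have h2 : b * a⁻¹ * b⁻¹ ∈ L := by
      have e : b * a⁻¹ * b⁻¹ = a⁻¹ * (a * b * a⁻¹ * b⁻¹) := by group
      rw [e]; exact mul_mem (inv_mem haL) (hDL hcab)
    have h3 : (a * b * a⁻¹ * b⁻¹) ^ p ^ k = 1 := by
      have e : a * b * a⁻¹ * b⁻¹ = a * (b * a⁻¹ * b⁻¹) := by group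
      rw [e]
      apply ihL a haL _ h2 ha1
      rw [conj_pow, inv_pow, ha1]; group
    let E : Subgroup G :=
      { carrier := {x | x ∈ ⁅H, H⁆ ∧ x ^ p ^ k = 1}
        one_mem' := ⟨one_mem _, one_pow _⟩
        mul_mem' := by
          rintro x y ⟨hx, hx2⟩ ⟨hy, hy2⟩
          exact ⟨mul_mem hx hy, ihD x hx y hy hx2 hy2⟩
        inv_mem' := by
          rintro x ⟨hx, hx2⟩
          exact ⟨inv_mem hx, by rw [inv_pow, hx2, inv_one]⟩ }
    have hDn : H ≤ normalizer ((⁅H, H⁆ : Subgroup G) : Set G) := Subgroup.normalizer_commutator_ge_right _ _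
    have hEn : H ≤ normalizer (E : Set G) := by
      intro h hh
      apply H1.mem_normalizer_of_conj_mem
      rintro x ⟨hx, hx2⟩
      refine ⟨(mem_normalizer_iff.1 (hDn hh) x).1 hx, ?_⟩
      rw [conj_pow, hx2]; group
    have hDE := comm_closure_le (hEn haH) (hEn hbH) (E := E) ⟨hcab, h3⟩
    exact powerClosure_eq_one (fun x hx => (hDE hx).2) hc

theorem reg_omega [Finite G] {p : ℕ} [hp : Fact p.Prime] (hG : IsRegularPGroup p G) (k : ℕ) {a b : G}
    (ha : a ^ p ^ k = 1) (hb : b ^ p ^ k = 1) : (a * b) ^ p ^ k = 1 :=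
  reg_omega_aux hG k _ ⊤ rfl a trivial b trivial ha hb

/-- the subgroup of elements of order dividing `p^k` -/
def regE [Finite G] {p : ℕ} [hp : Fact p.Prime] (hG : IsRegularPGroup p G) (k : ℕ) : Subgroup G where
  carrier := {x | x ^ p ^ k = 1}
  one_mem' := one_pow _
  mul_mem' := fun ha hb => reg_omega hG k ha hb
  inv_mem' := fun {x} hx => by
    have : x ^ p ^ k = 1 := hx
    show x⁻¹ ^ p ^ k = 1
    rw [inv_pow, this, inv_one]

theorem regE_char [Finite G] {p : ℕ} [hp : Fact p.Prime] (hG : IsRegularPGroup p G) (k : ℕ) : (regE hG k).Characteristic := by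
  rw [Subgroup.characteristic_iff_comap_eq]
  intro φ
  ext x
  show φ x ^ p ^ k = 1 ↔ x ^ p ^ k = 1
  rw [← map_pow]
  exact map_eq_one_iff φ φ.injective

theorem reg_exp [Finite G] {p : ℕ} [hp : Fact p.Prime] (hG : IsRegularPGroup p G) {k : ℕ} {a b c : G}
    (hab : (a * b * a⁻¹ * b⁻¹) ^ p ^ k = 1)
    (hc : c ∈ powerClosure p k ⁅closure ({a, b} : Set G), closure ({a, b} : Set G)⁆) : c = 1 := by
  haveI := regE_char hG k
  have hn : (regE hG k).Normal := inferInstance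
  apply powerClosure_eq_one _ hc
  have h1 := comm_closure_le (E := regE hG k) (a := a) (b := b) (by rw [Subgroup.normalizer_eq_top (H := regE hG k)]; trivial)
    (by rw [Subgroup.normalizer_eq_top (H := regE hG k)]; trivial) hab
  exact fun x hx => h1 hx

theorem reg_pow_eq_aux [Finite G] {p : ℕ} [hp : Fact p.Prime] (hG : IsRegularPGroup p G) (k : ℕ) (n : ℕ) : ∀ K : Subgroup G, Nat.card K = n →
    ∀ a ∈ K, ∀ b ∈ K, a ^ p ^ k = b ^ p ^ k → (a * b⁻¹) ^ p ^ k = 1 := by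
  induction n using Nat.strong_induction_on with
  | _ n ih =>
  intro K hK a ha b hb hab
  haveI := hG.1.isNilpotent
  set H := closure ({a, b} : Set G) with hH
  have haH : a ∈ H := subset_closure (by simp)
  have hbH : b ∈ H := subset_closure (by simp)
  have hHK : H ≤ K := by
    rw [hH, closure_le]
    rintro x (rfl | rfl)
    · exact ha
    · exact hb
  have hcab : a * b * a⁻¹ * b⁻¹ ∈ ⁅H, H⁆ := by
      rw [← commutatorElement_def]; exact commutator_mem_commutator haH hbH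
  by_cases hD : ⁅H, H⁆ = ⊥
  · rw [hD, mem_bot] at hcab
    have h1 : Commute a b := by
      have e : a * b = (a * b * a⁻¹ * b⁻¹) * (b * a) := by group
      rw [hcab, one_mul] at e
      exact e
    rw [h1.inv_right.mul_pow, inv_pow, hab, mul_inv_cancel]
  · have hlt := lt_of_comm_ne_bot (G := G) inferInstance haH hD
    set L := zpowers a ⊔ ⁅H, H⁆ with hL
    have hcard : Nat.card L < n := by
      rw [← hK]
      refine lt_of_lt_of_le ?_ (Subgroup.card_le_of_le hHK)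
      refine lt_of_le_of_ne (Subgroup.card_le_of_le hlt.le) ?_
      intro h
      exact hlt.ne (Subgroup.eq_of_le_of_card_ge hlt.le h.ge)
    have hDL : ⁅H, H⁆ ≤ L := le_sup_right
    have haL : a ∈ L := mem_sup_left (mem_zpowers a)
    have h2 : b * a * b⁻¹ ∈ L := by
      have e : b * a * b⁻¹ = (a * b * a⁻¹ * b⁻¹)⁻¹ * a := by group
      rw [e]; exact mul_mem (inv_mem (hDL hcab)) haL
    have h3 : (a * b * a⁻¹ * b⁻¹) ^ p ^ k = 1 := by
      have h4 := ih _ hcard L rfl a haL _ h2 (by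
        rw [conj_pow, hab]
        group)
      have e : a * b * a⁻¹ * b⁻¹ = a * (b * a * b⁻¹)⁻¹ := by group
      rw [e]; exact h4
    obtain ⟨c, hc, hc2⟩ := hG.2 a b⁻¹ k
    have h5 : c = 1 := by
      refine reg_exp hG ?_ hc
      have e : a * b⁻¹ * a⁻¹ * b⁻¹⁻¹ = b⁻¹ * (a * b * a⁻¹ * b⁻¹)⁻¹ * b⁻¹⁻¹ := by group
      rw [e, conj_pow, inv_pow, h3]; group
    rw [hc2, h5, hab, inv_pow]; group

theorem reg_pow_eq_iff [Finite G] {p : ℕ} [hp : Fact p.Prime] (hG : IsRegularPGroup p G) (a b : G) (k : ℕ) :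
    a ^ p ^ k = b ^ p ^ k ↔ (a * b⁻¹) ^ p ^ k = 1 := by
  constructor
  · intro h
    exact reg_pow_eq_aux hG k _ ⊤ rfl a trivial b trivial h
  · intro h
    obtain ⟨c, hc, hc2⟩ := hG.2 (a * b⁻¹) b k
    have h5 : c = 1 := by
      refine reg_exp hG ?_ hc
      have e : a * b⁻¹ * b * (a * b⁻¹)⁻¹ * b⁻¹ = (a * b⁻¹) * (b * (a * b⁻¹)⁻¹ * b⁻¹) := by group
      rw [e]
      apply reg_omega hG k h
      rw [conj_pow, inv_pow, h]; group
    have e : a * b⁻¹ * b = a := by group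
    rw [e, h, h5, one_mul, mul_one] at hc2
    exact hc2

end
end Cfsg.Agent.H3
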