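import Cfsg.Agent.H3.FrobSol
import Cfsg.Agent.H1.Rank1

set_option autoImplicit false
set_option linter.unusedSectionVars false
set_option linter.unusedSimpArgs false
set_option linter.unusedVariables false
set_option linter.style.haveILetI false
open Subgroup

namespace Cfsg.Agent.H3

universe u

section
variable {G : Type u} [Group G] [Finite G]

/-- subsets of size `k` -/
abbrev KSub (G : Type u) (k : ℕ) := {s : Finset G // s.card = k}

noncomputable instance ksubAction (k : ℕ) : MulAction G (KSub G k) where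
  smul g S := ⟨S.1.map (Equiv.mulLeft g).toEmbedding, by rw [Finset.card_map]; exact S.2⟩
  one_smul S := by
    apply Subtype.ext
    ext x
    show x ∈ S.1.map (Equiv.mulLeft (1 : G)).toEmbedding ↔ _
    simp only [Finset.mem_map, Equiv.coe_toEmbedding, Equiv.coe_mulLeft, one_mul, exists_eq_right]
  mul_smul g h S := by
    apply Subtype.ext
    ext x
    show x ∈ S.1.map (Equiv.mulLeft (g * h)).toEmbedding ↔ x ∈ (S.1.map (Equiv.mulLeft h).toEmbedding).map (Equiv.mulLeft g).toEmbedding
    simp only [Finset.mem_map, Equiv.coe_toEmbedding, Equiv.coe_mulLeft]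
    constructor
    · rintro ⟨a, ha, rfl⟩
      exact ⟨h * a, ⟨a, ha, rfl⟩, by group⟩
    · rintro ⟨_, ⟨a, ha, rfl⟩, rfl⟩
      exact ⟨a, ha, by group⟩

theorem mem_smul_ksub {k : ℕ} (g : G) (S : KSub G k) (x : G) : x ∈ (g • S).1 ↔ g⁻¹ * x ∈ S.1 := by
  show x ∈ S.1.map (Equiv.mulLeft g).toEmbedding ↔ _
  simp only [Finset.mem_map, Equiv.coe_toEmbedding, Equiv.coe_mulLeft]
  constructor
  · rintro ⟨a, ha, rfl⟩
    rwa [inv_mul_cancel_left]
  · intro h
    exact ⟨_, h, by group⟩

theorem mem_stab {k : ℕ} (g : G) (S : KSub G k) (h : g ∈ MulAction.stabilizer G S) (x : G) : g * x ∈ S.1 ↔ x ∈ S.1 := by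
  rw [MulAction.mem_stabilizer_iff] at h
  nth_rewrite 1 [← h]
  rw [mem_smul_ksub, inv_mul_cancel_left]

theorem stab_of {k : ℕ} (g : G) (S : KSub G k) (h : ∀ x, g * x ∈ S.1 ↔ x ∈ S.1) : g ∈ MulAction.stabilizer G S := by
  rw [MulAction.mem_stabilizer_iff]
  apply Subtype.ext
  ext x
  rw [mem_smul_ksub, ← h, mul_inv_cancel_left]

theorem stab_dvd {k : ℕ} (S : KSub G k) : Nat.card ↥(MulAction.stabilizer G S) ∣ k := by
  classical
  set T := MulAction.stabilizer G S with hT
  haveI : Fintype G := Fintype.ofFinite G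
  haveI : Fintype (Quotient (QuotientGroup.rightRel T)) := Fintype.ofFinite _
  have h0 : k = ∑ _a : {x // x ∈ S.1}, 1 := by
    rw [Finset.sum_const, smul_eq_mul, mul_one, Finset.card_univ, Fintype.card_coe, S.2]
  rw [h0]
  apply sum_dvd_of_fiber (fun x : {x // x ∈ S.1} => (Quotient.mk (QuotientGroup.rightRel T) (x : G))) (fun _ => 1)
  intro b
  by_cases hb : ∃ y0 : {x // x ∈ S.1}, Quotient.mk (QuotientGroup.rightRel T) (y0 : G) = b
  · obtain ⟨y0, rfl⟩ := hb
    rw [← Finset.card_eq_sum_ones, ← Fintype.card_subtype, ← Nat.card_eq_fintype_card]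
    have : Nat.card {x : {x // x ∈ S.1} // Quotient.mk (QuotientGroup.rightRel T) (x : G) = Quotient.mk (QuotientGroup.rightRel T) (y0 : G)} = Nat.card ↥T := by
      apply Nat.card_congr
      refine ⟨fun x => ⟨(x.1 : G) * (y0 : G)⁻¹, ?_⟩, fun t => ⟨⟨(t : G) * y0, (mem_stab _ S t.2 _).2 y0.2⟩, ?_⟩, ?_, ?_⟩
      · have h1 := Quotient.exact x.2
        rw [← Quotient.eq_iff_equiv, Quotient.eq, QuotientGroup.rightRel_apply] at h1
        have := inv_mem h1
        simpa using this
      · rw [Quotient.eq, QuotientGroup.rightRel_apply]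
        have : (y0 : G) * ((t : G) * y0)⁻¹ = (t : G)⁻¹ := by group
        rw [this]; exact inv_mem t.2
      · intro x; apply Subtype.ext; apply Subtype.ext; show (x.1 : G) * (y0 : G)⁻¹ * y0 = x.1; group
      · intro t; apply Subtype.ext; show (t : G) * y0 * (y0 : G)⁻¹ = t; group
    rw [this]
  · have h1 : (Finset.univ.filter (fun a : {x // x ∈ S.1} => Quotient.mk (QuotientGroup.rightRel T) (a : G) = b)) = ∅ := by
      rw [Finset.filter_eq_empty_iff]
      intro a _ ha
      exact hb ⟨a, ha⟩
    rw [h1, Finset.sum_empty]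
    exact dvd_zero _

/-- the subsets with a given stabilizer of order `k` -/
theorem card_stab_eq {k : ℕ} (hk : 0 < k) (H : Subgroup G) (hH : Nat.card ↥H = k) :
    Nat.card {S : KSub G k // MulAction.stabilizer G S = H} * k = Nat.card G := by
  classical
  haveI : Fintype G := Fintype.ofFinite G
  haveI : Fintype {S : KSub G k // MulAction.stabilizer G S = H} := Fintype.ofFinite _
  -- G is the disjoint union of these subsets
  have h1 : Nat.card ((S : {S : KSub G k // MulAction.stabilizer G S = H}) × {x // x ∈ S.1.1}) = Nat.card G := by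
    apply Nat.card_congr
    apply Equiv.ofBijective (fun t => (t.2 : G))
    have hS : ∀ S : KSub G k, MulAction.stabilizer G S = H → ∀ x ∈ S.1, ∀ y, y ∈ S.1 ↔ y * x⁻¹ ∈ H := by
      intro S hS x hx
      -- S = H x by counting
      let T : Finset G := Finset.univ.filter (fun y => y * x⁻¹ ∈ H)
      have hT : T.card = k := by
        rw [← hH, Nat.card_eq_fintype_card, ← Fintype.card_subtype]
        apply Fintype.card_congr
        refine ⟨fun y => ⟨y.1 * x⁻¹, y.2⟩, fun h => ⟨(h : G) * x, by rw [mul_inv_cancel_right]; exact h.2⟩, ?_, ?_⟩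
        · intro y; apply Subtype.ext; show y.1 * x⁻¹ * x = y.1; group
        · intro h; apply Subtype.ext; show (h : G) * x * x⁻¹ = h; group
      have hTS : T ⊆ S.1 := by
        intro y hy
        have hy' : y * x⁻¹ ∈ H := (Finset.mem_filter.1 hy).2
        rw [← hS] at hy'
        have := (mem_stab _ S hy' x).2 hx
        rwa [inv_mul_cancel_right] at this
      have hTS' : T = S.1 := Finset.eq_of_subset_of_card_le hTS (by rw [hT, S.2])
      intro y
      rw [← hTS', Finset.mem_filter]
      simp
    constructor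
    · rintro ⟨⟨S, hS1⟩, ⟨x, hx⟩⟩ ⟨⟨S', hS1'⟩, ⟨x', hx'⟩⟩ h
      have h2 : x = x' := h
      subst h2
      have h3 : S = S' := by
        apply Subtype.ext
        ext y
        rw [hS S hS1 x hx, hS S' hS1' x hx']
      subst h3
      rfl
    · intro x
      let T : Finset G := Finset.univ.filter (fun y => y * x⁻¹ ∈ H)
      have hT : T.card = k := by
        rw [← hH, Nat.card_eq_fintype_card, ← Fintype.card_subtype]
        apply Fintype.card_congr
        refine ⟨fun y => ⟨y.1 * x⁻¹, y.2⟩, fun h => ⟨(h : G) * x, by rw [mul_inv_cancel_right]; exact h.2⟩, ?_, ?_⟩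
        · intro y; apply Subtype.ext; show y.1 * x⁻¹ * x = y.1; group
        · intro h; apply Subtype.ext; show (h : G) * x * x⁻¹ = h; group
      have hst : MulAction.stabilizer G (⟨T, hT⟩ : KSub G k) = H := by
        symm
        apply Subgroup.eq_of_le_of_card_ge
        · intro h hh
          apply stab_of
          intro y
          show h * y ∈ T ↔ y ∈ T
          simp only [T, Finset.mem_filter, Finset.mem_univ, true_and]
          rw [mul_assoc]
          exact H.mul_mem_cancel_left hh
        · rw [hH]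
          exact Nat.le_of_dvd hk (stab_dvd _)
      have hxT : x ∈ T := by simp [T, H.one_mem]
      exact ⟨⟨⟨⟨T, hT⟩, hst⟩, ⟨x, hxT⟩⟩, rfl⟩
  rw [Nat.card_sigma] at h1
  rw [← h1]
  have h2 : ∀ S : {S : KSub G k // MulAction.stabilizer G S = H}, Nat.card {x // x ∈ S.1.1} = k := by
    intro S
    rw [Nat.card_eq_fintype_card, Fintype.card_coe]
    exact S.1.2
  rw [Finset.sum_congr rfl (fun S _ => h2 S), Finset.sum_const, smul_eq_mul, Finset.card_univ, Nat.card_eq_fintype_card]

end

/-- the fundamental congruence -/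
theorem choose_modEq {G : Type u} [Group G] [Finite G] {p β m : ℕ} (hp : p.Prime) (hG : Nat.card G = p ^ β * m) :
    (Nat.card G).choose (p ^ β) ≡ m * Nat.card {H : Subgroup G // Nat.card H = p ^ β} [MOD m * p] := by
  classical
  haveI : Fintype G := Fintype.ofFinite G
  set k := p ^ β with hk
  have hk0 : 0 < k := pow_pos hp.pos β
  have h1 : (Nat.card G).choose k = Nat.card (KSub G k) := by
    rw [Nat.card_eq_fintype_card, Nat.card_eq_fintype_card, Fintype.card_finset_len]
  -- split
  have h2 : Nat.card (KSub G k) = Nat.card {S : KSub G k // Nat.card ↥(MulAction.stabilizer G S) = k} +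
      Nat.card {S : KSub G k // ¬ Nat.card ↥(MulAction.stabilizer G S) = k} := by
    rw [← Nat.card_sum]
    exact (Nat.card_congr (Equiv.sumCompl _)).symm
  have h3 : Nat.card {S : KSub G k // Nat.card ↥(MulAction.stabilizer G S) = k} = m * Nat.card {H : Subgroup G // Nat.card H = k} := by
    have h4 : Nat.card {S : KSub G k // Nat.card ↥(MulAction.stabilizer G S) = k} =
        Nat.card ((H : {H : Subgroup G // Nat.card H = k}) × {S : KSub G k // MulAction.stabilizer G S = H.1}) := by
      apply Nat.card_congr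
      refine ⟨fun S => ⟨⟨MulAction.stabilizer G S.1, S.2⟩, ⟨S.1, rfl⟩⟩, fun t => ⟨t.2.1, by rw [t.2.2]; exact t.1.2⟩, fun S => rfl, ?_⟩
      intro t
      obtain ⟨⟨H, hH⟩, ⟨S, hS⟩⟩ := t
      dsimp only at hS
      subst hS
      rfl
    haveI : Fintype {H : Subgroup G // Nat.card H = k} := Fintype.ofFinite _
    rw [h4, Nat.card_sigma]
    have h5 : ∀ H : {H : Subgroup G // Nat.card H = k}, Nat.card {S : KSub G k // MulAction.stabilizer G S = H.1} = m := by
      intro H
      have h6 := card_stab_eq hk0 H.1 H.2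
      rw [hG, mul_comm k m] at h6
      exact Nat.eq_of_mul_eq_mul_right hk0 h6
    rw [Finset.sum_congr rfl (fun H _ => h5 H), Finset.sum_const, smul_eq_mul, Finset.card_univ, Nat.card_eq_fintype_card, mul_comm]
  have h4 : m * p ∣ Nat.card {S : KSub G k // ¬ Nat.card ↥(MulAction.stabilizer G S) = k} := by
    haveI : Fintype {S : KSub G k // ¬ Nat.card ↥(MulAction.stabilizer G S) = k} := Fintype.ofFinite _
    haveI : Fintype (Quotient (MulAction.orbitRel G (KSub G k))) := Fintype.ofFinite _
    rw [Nat.card_eq_fintype_card, ← Finset.card_univ, Finset.card_eq_sum_ones]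
    apply sum_dvd_of_fiber (fun S : {S : KSub G k // ¬ Nat.card ↥(MulAction.stabilizer G S) = k} => (Quotient.mk (MulAction.orbitRel G (KSub G k)) S.1)) (fun _ => 1)
    intro b
    by_cases hb : ∃ S0 : {S : KSub G k // ¬ Nat.card ↥(MulAction.stabilizer G S) = k}, Quotient.mk (MulAction.orbitRel G (KSub G k)) S0.1 = b
    · obtain ⟨S0, rfl⟩ := hb
      rw [← Finset.card_eq_sum_ones, ← Fintype.card_subtype, ← Nat.card_eq_fintype_card]
      have h5 : Nat.card {S : {S : KSub G k // ¬ Nat.card ↥(MulAction.stabilizer G S) = k} // Quotient.mk (MulAction.orbitRel G (KSub G k)) S.1 = Quotient.mk (MulAction.orbitRel G (KSub G k)) S0.1} = (MulAction.stabilizer G S0.1).index := by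
        rw [MulAction.index_stabilizer, ← Nat.card_coe_set_eq]
        apply Nat.card_congr
        have hst : ∀ S : KSub G k, S ∈ MulAction.orbit G S0.1 → Nat.card ↥(MulAction.stabilizer G S) = Nat.card ↥(MulAction.stabilizer G S0.1) := by
          rintro _ ⟨g, rfl⟩
          show Nat.card ↥(MulAction.stabilizer G (g • S0.1)) = _
          rw [MulAction.stabilizer_smul_eq_stabilizer_map_conj]
          exact Subgroup.card_map_of_injective (MulAut.conj g).injective
        refine ⟨fun S => ⟨S.1.1, ?_⟩, fun S => ⟨⟨S.1, ?_⟩, ?_⟩, fun S => rfl, fun S => rfl⟩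
        · have := S.2
          rw [Quotient.eq] at this
          exact this
        · rw [hst _ S.2]; exact S0.2
        · rw [Quotient.eq]; exact S.2
      rw [h5]
      have h6 := (MulAction.stabilizer G S0.1).index_mul_card
      obtain ⟨j, hj, hj2⟩ := (Nat.dvd_prime_pow hp).1 (stab_dvd S0.1)
      have hjβ : j < β := by
        refine lt_of_le_of_ne hj ?_
        rintro rfl
        exact S0.2 hj2
      rw [hj2, hG] at h6
      have h7 : (MulAction.stabilizer G S0.1).index = p ^ (β - j) * m := by
        apply Nat.eq_of_mul_eq_mul_right (pow_pos hp.pos j)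
        have : k = p ^ (β - j) * p ^ j := by rw [hk, ← pow_add]; congr 1; omega
        calc (MulAction.stabilizer G S0.1).index * p ^ j = k * m := h6
          _ = (p ^ (β - j) * p ^ j) * m := congrArg (· * m) this
          _ = _ := by ring
      rw [h7, mul_comm m p]
      exact mul_dvd_mul_right (dvd_pow_self p (by omega)) m
    · have h1 : (Finset.univ.filter (fun a : {S : KSub G k // ¬ Nat.card ↥(MulAction.stabilizer G S) = k} => (Quotient.mk (MulAction.orbitRel G (KSub G k)) a.1) = b)) = ∅ := by
        rw [Finset.filter_eq_empty_iff]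
        intro a _ ha
        exact hb ⟨a, ha⟩
      rw [h1, Finset.sum_empty]
      exact dvd_zero _
  rw [h1, h2, h3]
  exact (Nat.modEq_iff_dvd' (Nat.le_add_right _ _)).2 (by rw [Nat.add_sub_cancel_left]; exact h4) |>.symm

/-- the number of subgroups of order `p^β` is `1` modulo `p` -/
theorem card_subgroups_modEq {G : Type u} [Group G] [Finite G] (p β : ℕ) (hp : p.Prime) (hdiv : p ^ β ∣ Nat.card G) :
    Nat.card {H : Subgroup G // Nat.card H = p ^ β} ≡ 1 [MOD p] := by
  obtain ⟨m, hm⟩ := hdiv
  have hG0 : 0 < Nat.card G := Nat.card_pos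
  have hm0 : m ≠ 0 := by rintro rfl; rw [mul_zero] at hm; omega
  have h1 := choose_modEq hp hm
  haveI : NeZero (Nat.card G) := ⟨hG0.ne'⟩
  let C := Multiplicative (ZMod (Nat.card G))
  have hC : Nat.card C = Nat.card G := Nat.card_zmod _
  have h2 := choose_modEq (G := C) hp (hC.trans hm)
  rw [hC] at h2
  have hu : Nat.card {H : Subgroup C // Nat.card H = p ^ β} = 1 := by
    rw [Nat.card_eq_one_iff_unique]
    haveI : IsCyclic C := inferInstance
    constructor
    · constructor
      rintro ⟨H, hH⟩ ⟨K, hK⟩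
      apply Subtype.ext
      have hcyc : IsCyclic ↥(⊤ : Subgroup C) := isCyclic_of_surjective (Subgroup.topEquiv (G := C)).symm.toMonoidHom Subgroup.topEquiv.symm.surjective
      apply le_antisymm
      · exact H1.sub_total_of_card hcyc le_top le_top (by rw [hH, hK])
      · exact H1.sub_total_of_card hcyc le_top le_top (by rw [hH, hK])
    · haveI : Fact p.Prime := ⟨hp⟩
      obtain ⟨H, hH⟩ := Sylow.exists_subgroup_card_pow_prime (G := C) p (n := β) (by rw [hC, hm]; exact dvd_mul_right _ _)
      exact ⟨⟨H, hH⟩⟩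
  rw [hu] at h2
  have h3 := h1.symm.trans h2
  exact Nat.ModEq.mul_left_cancel' hm0 h3

end Cfsg.Agent.H3
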